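import Mathlib
import Cfsg.Agent.Lib.Helper76.PRegHeight
import Cfsg.Agent.Lib.Helper76.BlockCount
import Cfsg.Agent.Lib.Helper78.CentralCalc
import Cfsg.Agent.Lib.Helper78.SecondMainChar
import Cfsg.Agent.Lib.Helper75.CharInd

/-!
# Block parts of induced characters

For `ξ` in a block `b` of `H` inducing the block `B₀` of `G`, the value at `1` of the `B`-part
of the induced character `ξ^G` is `ξ^G(1)` times a local integer congruent to `1` (if `B = B₀`)
or to `0` (otherwise) modulo the local ideal.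
-/

set_option autoImplicit false

namespace Cfsg.Agent.Lib.Helper76

open Cfsg Cfsg.Agent.Lib.Helper16 Cfsg.Agent.Lib.Helper26
open scoped ComplexConjugate

section

variable {G : Type*} [Group G] [Fintype G]

/-- The value at `1` of the block part of an induced function, through the block idempotent. -/
theorem blockPart_indFun_one (H : Subgroup G) [Fintype H] (B : Set (Cfsg.IrrCharacter G))
    (ξ : H → ℂ) :
    Cfsg.blockPart B (Cfsg.indFun H ξ) 1 =
      (H.index : ℂ) * ∑ h : H, Cfsg.blockCoeff B (h : G) * ξ h := by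
  classical
  have hcl := Cfsg.Agent.Lib.Helper75.indFun_isClassFunction H ξ
  have h1 := Cfsg.Agent.Lib.Helper78.blockPart_eq_sum_blockCoeff B (Cfsg.indFun H ξ) hcl 1
  have h2 : Cfsg.blockPart B (Cfsg.indFun H ξ) 1 =
      ∑ k : G, Cfsg.blockCoeff B k * Cfsg.indFun H ξ k := by
    rw [h1]
    refine Finset.sum_congr (Finset.ext fun x => by simp) fun k _ => ?_
    rw [mul_one]
  rw [h2]
  have hbcl : Cfsg.IsClassFunction G (fun g => conj (Cfsg.blockCoeff B g)) := by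
    intro g h
    show conj (Cfsg.blockCoeff B (h * g * h⁻¹)) = conj (Cfsg.blockCoeff B g)
    rw [Cfsg.Agent.Lib.Helper77.blockCoeff_conj]
  have hfr := Cfsg.Agent.Lib.Helper75.frobenius_reciprocity H ξ hbcl
  unfold Cfsg.classInner at hfr
  simp only [Complex.conj_conj] at hfr
  have hG0 : (Nat.card G : ℂ) ≠ 0 := by exact_mod_cast Nat.card_pos.ne'
  have hH0 : (Nat.card H : ℂ) ≠ 0 := by exact_mod_cast Nat.card_pos.ne'
  have hidx : (Nat.card G : ℂ) = (Nat.card H : ℂ) * (H.index : ℂ) := by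
    rw [← H.card_mul_index]; push_cast; rfl
  have e1 : ∑ k : G, Cfsg.blockCoeff B k * Cfsg.indFun H ξ k =
      ∑ k : G, Cfsg.indFun H ξ k * Cfsg.blockCoeff B k :=
    Finset.sum_congr rfl fun k _ => mul_comm _ _
  have e2 : ∑ h : H, Cfsg.blockCoeff B (h : G) * ξ h = ∑ h : H, ξ h * Cfsg.blockCoeff B (h : G) :=
    Finset.sum_congr rfl fun k _ => mul_comm _ _
  rw [e1, e2]
  have h3 : ∑ k : G, Cfsg.indFun H ξ k * Cfsg.blockCoeff B k =
      (Nat.card G : ℂ) * ((Nat.card H : ℂ)⁻¹ * ∑ h : H, ξ h * Cfsg.blockCoeff B (h : G)) := by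
    rw [← hfr]
    field_simp
  rw [h3, hidx]
  field_simp

/-- The degree of an induced character. -/
theorem charDegree_indFun (H : Subgroup G) [Fintype H] (ξ : Cfsg.IrrCharacter H) :
    Cfsg.charDegree (Cfsg.indFun H (ξ : H → ℂ)) = H.index * Cfsg.charDegree (ξ : H → ℂ) := by
  obtain ⟨h1, -, -⟩ := Cfsg.Agent.Lib.Helper79.irr_charDegree ξ.2
  have h2 : Cfsg.indFun H (ξ : H → ℂ) 1 = ((H.index * Cfsg.charDegree (ξ : H → ℂ) : ℕ) : ℂ) := by
    rw [Cfsg.Agent.Lib.Helper75.indFun_one, h1]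
    push_cast
    rfl
  show ⌊(Cfsg.indFun H (ξ : H → ℂ) 1).re⌋₊ = _
  rw [h2, Complex.natCast_re, Nat.floor_natCast]

/-- **Block parts of induced characters.** If `b` induces `B₀` and `ξ ∈ b`, then for every block
`B` of `G` the value at `1` of the `B`-part of `ξ^G` is a natural number `n` with
`n = ξ^G(1) * t`, where `t` is a local integer congruent to `1` if `B = B₀` and to `0` otherwise. -/
theorem blockPart_indFun_val {p : ℕ} [Fact p.Prime] {M : Ideal Cfsg.AlgInt}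
    (hM : Cfsg.IsPModular p M) (H : Subgroup G) [Fintype H] (b : Set (Cfsg.IrrCharacter H))
    (B₀ : Set (Cfsg.IrrCharacter G)) (hind : Cfsg.IsInducedBlock M H b B₀)
    (ξ : Cfsg.IrrCharacter H) (hξ : ξ ∈ b) (B : Set (Cfsg.IrrCharacter G))
    (hB : Cfsg.IsPBlock M B) :
    ∃ (n : ℕ) (t : ℂ), Cfsg.blockPart B (Cfsg.indFun H (ξ : H → ℂ)) 1 = (n : ℂ) ∧
      (n : ℂ) = (Cfsg.charDegree (Cfsg.indFun H (ξ : H → ℂ)) : ℂ) * t ∧ MemLocalRing M t ∧
      (B = B₀ → ¬ MemLocalIdeal M t) ∧ (B ≠ B₀ → MemLocalIdeal M t) ∧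
      n = ∑ᶠ χ ∈ B, (Nat.floor (Cfsg.classInner (Cfsg.indFun H (ξ : H → ℂ)) (χ : G → ℂ)).re) *
        Cfsg.charDegree (χ : G → ℂ) := by
  classical
  have hMp := isPrime_of_isPModular hM
  have := Cfsg.Agent.Lib.Helper81.irr_finite G
  have := Fintype.ofFinite (Cfsg.IrrCharacter G)
  obtain ⟨hb, hB₀, hcong⟩ := hind
  obtain ⟨χ₀, hχ₀⟩ := IsPBlock.nonempty hMp hB₀
  obtain ⟨h1, hpos, -⟩ := Cfsg.Agent.Lib.Helper79.irr_charDegree ξ.2
  have hchar : Cfsg.IsCharacter G (Cfsg.indFun H (ξ : H → ℂ)) :=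
    Cfsg.Agent.Lib.Helper75.isCharacter_indFun H (isCharacter_of_irr ξ.2)
  have hm := fun χ : Cfsg.IrrCharacter G =>
    Cfsg.Agent.Lib.Helper75.classInner_char_nat hchar (isCharacter_of_irr χ.2)
  choose m hm using hm
  obtain ⟨hR, hcl, hom⟩ := Cfsg.Agent.Lib.Helper77.blockCoeff_spec hMp B hB
  set t := Cfsg.Agent.Lib.Helper77.omegaF (ξ : H → ℂ) (fun k : H => Cfsg.blockCoeff B (k : G))
    with ht
  have hres := Cfsg.Agent.Lib.Helper78.memLocalIdeal_omegaF_restrict_sub hMp H (ξ : H → ℂ)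
    (χ₀ : G → ℂ) (fun g h => irrCharacter_conj_eq χ₀ h g) (fun g => hcong ξ hξ χ₀ hχ₀ g) hR hcl
  rw [hom χ₀, ← ht] at hres
  -- the natural number
  have hinst : Fintype.ofFinite G = (inferInstance : Fintype G) := Subsingleton.elim _ _
  have hbp : Cfsg.blockPart B (Cfsg.indFun H (ξ : H → ℂ)) 1 =
      ((∑ χ ∈ B.toFinset, m χ * Cfsg.charDegree (χ : G → ℂ) : ℕ) : ℂ) := by
    show ∑ᶠ χ ∈ B, @Cfsg.classInner G _ (Fintype.ofFinite G) _ (χ : G → ℂ) * (χ : G → ℂ) 1 = _
    rw [hinst, finsum_mem_eq_toFinset_sum]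
    push_cast
    refine Finset.sum_congr rfl fun χ _ => ?_
    rw [hm χ, (Cfsg.Agent.Lib.Helper79.irr_charDegree χ.2).1]
  refine ⟨∑ χ ∈ B.toFinset, m χ * Cfsg.charDegree (χ : G → ℂ), t, hbp, ?_, ?_, ?_, ?_, ?_⟩
  · rw [← hbp, blockPart_indFun_one, charDegree_indFun, ht]
    unfold Cfsg.Agent.Lib.Helper77.omegaF
    rw [h1]
    have hd0 : (Cfsg.charDegree (ξ : H → ℂ) : ℂ) ≠ 0 := by exact_mod_cast hpos.ne'
    push_cast
    field_simp
  · have h2 : MemLocalRing M (if χ₀ ∈ B then (1 : ℂ) else 0) := by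
      split_ifs
      · exact memLocalRing_one hMp
      · exact memLocalRing_zero hMp
    have := memLocalRing_add hMp (MemLocalIdeal.memLocalRing hres) h2
    rwa [sub_add_cancel] at this
  · intro hBB hcon
    rw [if_pos (hBB ▸ hχ₀)] at hres
    have := memLocalIdeal_sub hMp hcon hres
    rw [sub_sub_cancel] at this
    exact not_memLocalIdeal_one hMp this
  · intro hBB
    rw [if_neg (fun hmem => hBB (block_eq_of_mem hMp hB hB₀ hmem hχ₀)), sub_zero] at hres
    exact hres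
  · rw [finsum_mem_eq_toFinset_sum]
    refine Finset.sum_congr rfl fun χ _ => ?_
    rw [hm χ, Complex.natCast_re, Nat.floor_natCast]

end

end Cfsg.Agent.Lib.Helper76
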