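import Mathlib
import Cfsg.Agent.Lib.Helper23.BG36.Defs2

/-!
# TEAM PROJECT S1444 (B-G Theorem 3.6), package P11: `LemmaMinNormal`

A minimal `Γ`-invariant subgroup of `H` is an elementary abelian `p`-group when `H` has no
nontrivial `Γ`-invariant `p'`-subgroup.
-/

set_option autoImplicit false

namespace Cfsg.Agent.Lib.Helper76.BG36

universe u

open Subgroup
open scoped commutatorElement

/-- Conjugation by an element of the normalizer fixes the subgroup. -/
theorem map_conj_eq_of_mem_normalizer {X : Type u} [Group X] (V : Subgroup X) {g : X}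
    (hg : g ∈ normalizer (V : Set X)) : V.map (MulAut.conj g).toMonoidHom = V := by
  ext x
  constructor
  · rintro ⟨v, hv, rfl⟩
    exact (Subgroup.mem_normalizer_iff.mp hg v).mp hv
  · intro hx
    refine ⟨g⁻¹ * x * g, ?_, ?_⟩
    · have h1 := (Subgroup.mem_normalizer_iff.mp hg (g⁻¹ * x * g)).mpr
      apply h1
      have h2 : g * (g⁻¹ * x * g) * g⁻¹ = x := by group
      rw [h2]
      exact hx
    · show g * (g⁻¹ * x * g) * g⁻¹ = x
      group

/-- If conjugation by `g` fixes a subgroup, `g` normalizes it. -/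
theorem mem_normalizer_of_map_conj_eq {X : Type u} [Group X] (K : Subgroup X) {g : X}
    (hg : K.map (MulAut.conj g).toMonoidHom = K) : g ∈ normalizer (K : Set X) := by
  rw [Subgroup.mem_normalizer_iff]
  intro h
  constructor
  · intro hh
    rw [← hg]
    exact ⟨h, hh, rfl⟩
  · intro hh
    rw [← hg] at hh
    obtain ⟨h', hh', he⟩ := hh
    have h3 : h' = h := (MulAut.conj g).injective he
    rw [← h3]
    exact hh'

/-- The derived subgroup of `V` is normalized by everything normalizing `V`. -/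
theorem normalizer_le_normalizer_commutator {X : Type u} [Group X] (V : Subgroup X) :
    normalizer (V : Set X) ≤ normalizer ((⁅V, V⁆ : Subgroup X) : Set X) := by
  intro g hg
  apply mem_normalizer_of_map_conj_eq
  rw [Subgroup.map_commutator, map_conj_eq_of_mem_normalizer V hg]

/-- A nontrivial subgroup of a solvable group is not perfect. -/
theorem commutator_ne_self_of_solvable {X : Type u} [Group X] [Group.IsSolvable X]
    (V : Subgroup X) (hV : V ≠ ⊥) : ⁅V, V⁆ ≠ V := by
  intro h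
  have key : ∀ n : ℕ, V ≤ derivedSeries X n := by
    intro n
    induction n with
    | zero => exact le_top
    | succ n ih =>
      rw [derivedSeries_succ]
      calc V = ⁅V, V⁆ := h.symm
        _ ≤ ⁅derivedSeries X n, derivedSeries X n⁆ := Subgroup.commutator_mono ih ih
  obtain ⟨n, hn⟩ := (Group.isSolvable_def X).mp inferInstance
  apply hV
  rw [eq_bot_iff, ← hn]
  exact key n

theorem lemmaMinNormal : Cfsg.Agent.Lib.Helper23.BG36.LemmaMinNormal.{u} := by
  intro X _ _ _ p hp H Γ hHΓ hΓH hH1 hno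
  classical
  let S : Set (Subgroup X) := {V | V ≤ H ∧ V ≠ ⊥ ∧ Γ ≤ normalizer (V : Set X)}
  have hS : S.Nonempty := ⟨H, le_rfl, hH1, hΓH⟩
  obtain ⟨V, hVS, hVmin⟩ := Set.exists_min_image S (fun V => Nat.card V) (Set.toFinite S) hS
  obtain ⟨hVH, hV1, hΓV⟩ := hVS
  have hmin : ∀ V₂ : Subgroup X, V₂ ≤ V → Γ ≤ normalizer (V₂ : Set X) → V₂ = ⊥ ∨ V₂ = V := by
    intro V₂ hV₂ hΓV₂
    by_cases h0 : V₂ = ⊥
    · exact Or.inl h0
    · right
      have h1 : Nat.card V ≤ Nat.card V₂ := hVmin V₂ ⟨hV₂.trans hVH, h0, hΓV₂⟩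
      exact Subgroup.eq_of_le_of_card_ge hV₂ h1
  -- abelian
  have hcomm0 : ⁅V, V⁆ = ⊥ := by
    have h1 : ⁅V, V⁆ ≤ V := by
      rw [Subgroup.commutator_le]
      intro g₁ h₁ g₂ h₂
      rw [commutatorElement_def]
      exact V.mul_mem (V.mul_mem (V.mul_mem h₁ h₂) (V.inv_mem h₁)) (V.inv_mem h₂)
    rcases hmin ⁅V, V⁆ h1 (hΓV.trans (normalizer_le_normalizer_commutator V)) with h2 | h2
    · exact h2
    · exact absurd h2 (commutator_ne_self_of_solvable V hV1)
  have hcomm : ∀ v ∈ V, ∀ w ∈ V, v * w = w * v := by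
    intro v hv w hw
    have h1 : ⁅v, w⁆ ∈ ⁅V, V⁆ := Subgroup.commutator_mem_commutator hv hw
    rw [hcomm0, Subgroup.mem_bot] at h1
    exact (commutatorElement_eq_one_iff_mul_comm.mp h1)
  -- a prime dividing the order
  have hcard1 : Nat.card V ≠ 1 := fun h => hV1 (Subgroup.card_eq_one.mp h)
  obtain ⟨s, hs, hsdvd⟩ := Nat.exists_prime_and_dvd hcard1
  have : Fact s.Prime := ⟨hs⟩
  -- the subgroup of elements of order dividing s
  let Ω : Subgroup X :=
    { carrier := {v | v ∈ V ∧ v ^ s = 1}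
      mul_mem' := by
        rintro a b ⟨ha, ha'⟩ ⟨hb, hb'⟩
        refine ⟨V.mul_mem ha hb, ?_⟩
        have hc : Commute a b := hcomm a ha b hb
        rw [hc.mul_pow, ha', hb', one_mul]
      one_mem' := ⟨V.one_mem, one_pow s⟩
      inv_mem' := by
        rintro a ⟨ha, ha'⟩
        exact ⟨V.inv_mem ha, by rw [inv_pow, ha', inv_one]⟩ }
  have hΩV : Ω ≤ V := fun v hv => hv.1
  have hΩΓ : Γ ≤ normalizer (Ω : Set X) := by
    intro g hg
    have hgV := hΓV hg
    rw [Subgroup.mem_normalizer_iff]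
    intro h
    constructor
    · rintro ⟨hh, hh'⟩
      refine ⟨(Subgroup.mem_normalizer_iff.mp hgV h).mp hh, ?_⟩
      rw [conj_pow, hh']
      group
    · rintro ⟨hh, hh'⟩
      refine ⟨(Subgroup.mem_normalizer_iff.mp hgV h).mpr hh, ?_⟩
      rw [conj_pow] at hh'
      have h5 : h ^ s = g⁻¹ * (g * h ^ s * g⁻¹) * g := by group
      rw [h5, hh']
      group
  have hΩ1 : Ω ≠ ⊥ := by
    obtain ⟨x, hx⟩ := exists_prime_orderOf_dvd_card' (G := V) s hsdvd
    intro hbot
    have hxΩ : (x : X) ∈ Ω := by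
      refine ⟨x.2, ?_⟩
      have h6 : x ^ s = 1 := by rw [← hx]; exact pow_orderOf_eq_one x
      have h7 := congrArg Subtype.val h6
      simpa using h7
    rw [hbot, Subgroup.mem_bot] at hxΩ
    have h8 : x = 1 := Subtype.ext hxΩ
    rw [h8, orderOf_one] at hx
    exact hs.one_lt.ne hx
  have hΩeq : Ω = V := (hmin Ω hΩV hΩΓ).resolve_left hΩ1
  have hexp : ∀ v ∈ V, v ^ s = 1 := by
    intro v hv
    have h9 : v ∈ Ω := by rw [hΩeq]; exact hv
    exact h9.2
  have hsp : s = p := by
    by_contra hne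
    have hVs : IsPGroup s V := by
      intro ⟨v, hv⟩
      refine ⟨1, ?_⟩
      apply Subtype.ext
      rw [pow_one]
      exact hexp v hv
    obtain ⟨n, hn⟩ := IsPGroup.iff_card.mp hVs
    have hcop : (Nat.card V).Coprime p := by
      rw [hn]
      exact Nat.Coprime.pow_left n ((Nat.coprime_primes hs hp).mpr hne)
    exact hV1 (hno V hVH hΓV hcop)
  refine ⟨V, hVH, hV1, hΓV, ?_, hcomm, hmin⟩
  rw [← hsp]
  exact hexp

end Cfsg.Agent.Lib.Helper76.BG36
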