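import Mathlib
import Cfsg.Prelude.Def_Blocks
import Cfsg.Agent.Lib.Helper78.SecondMain
import Cfsg.Agent.Lib.Helper78.SecondMainChar
import Cfsg.Agent.Lib.Helper78.BlockOrth
import Cfsg.Agent.Lib.Helper16.ClassSum

/-!
# Summation over `p`-sections

A class function summed over the group is the sum, over representatives `x` of the classes of
`p`-elements, of `|G| / |C_G(x)|` times its sum over `x s`, `s` a `p`-regular element of
`C_G(x)`.
-/

set_option autoImplicit false

namespace Cfsg.Agent.Lib.Helper76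

open Cfsg Cfsg.Agent.Lib.Helper16 Cfsg.Agent.Lib.Helper78

section

variable {G : Type*} [Group G] [Fintype G]

/-- for fixed `t`, at most one `p`-regular `s ∈ C_G(x)` has `t⁻¹ (x s) t = g₀`, and there is
one exactly when `t⁻¹ x t` is the `p`-part of `g₀` -/
theorem sec_fiber [DecidableEq G] {p : ℕ} (hp : p.Prime) (x : G)
    (hx : ∃ k : ℕ, orderOf x = p ^ k)
    [Fintype (Subgroup.centralizer ({x} : Set G))] (g₀ z t : G) (hz : Cfsg.IsPPart p g₀ z) :
    ∑ s : Subgroup.centralizer ({x} : Set G),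
      (if ¬ p ∣ orderOf s ∧ t⁻¹ * (x * (s : G)) * t = g₀ then (1 : ℂ) else 0) =
      if t⁻¹ * x * t = z then 1 else 0 := by
  by_cases h : t⁻¹ * x * t = z
  · rw [if_pos h]
    obtain ⟨y, hy1, hy2, -, hy4⟩ := hz
    have hx' : x = t * z * t⁻¹ := by rw [← h]; group
    have hs₀ : t * y * t⁻¹ ∈ Subgroup.centralizer ({x} : Set G) := by
      rw [Subgroup.mem_centralizer_iff]
      intro m hm
      rw [Set.mem_singleton_iff] at hm
      subst hm
      rw [hx']
      calc t * z * t⁻¹ * (t * y * t⁻¹) = t * (z * y) * t⁻¹ := by group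
        _ = t * (y * z) * t⁻¹ := by rw [hy2.eq]
        _ = t * y * t⁻¹ * (t * z * t⁻¹) := by group
    rw [Finset.sum_eq_single (⟨t * y * t⁻¹, hs₀⟩ : Subgroup.centralizer ({x} : Set G))]
    · rw [if_pos]
      constructor
      · rw [← Subgroup.orderOf_coe]
        show ¬ p ∣ orderOf (t * y * t⁻¹)
        have : orderOf (t * y * t⁻¹) = orderOf y :=
          orderOf_injective (MulAut.conj t).toMonoidHom (MulAut.conj t).injective y
        rw [this]
        exact hy4
      · show t⁻¹ * (x * (t * y * t⁻¹)) * t = g₀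
        rw [← hy1, hx']
        group
    · intro s _ hs
      rw [if_neg]
      rintro ⟨-, h2⟩
      apply hs
      apply Subtype.ext
      show (s : G) = t * y * t⁻¹
      have e1 : (s : G) = x⁻¹ * t * g₀ * t⁻¹ := by rw [← h2]; group
      rw [e1, ← hy1, hx']
      group
    · intro habs
      exact absurd (Finset.mem_univ _) habs
  · rw [if_neg h]
    apply Finset.sum_eq_zero
    intro s _
    rw [if_neg]
    rintro ⟨h1, h2⟩
    apply h
    have hcomm : x * (s : G) = (s : G) * x := by
      have := s.2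
      rw [Subgroup.mem_centralizer_iff] at this
      exact this x rfl
    have hpp : Cfsg.IsPPart p (x * (s : G)) x :=
      ⟨(s : G), rfl, hcomm, hx, by rwa [Subgroup.orderOf_coe]⟩
    have hpp' := isPPart_conj hpp t⁻¹
    rw [inv_inv, h2] at hpp'
    exact isPPart_unique hp hpp' hz

/-- **Summation over `p`-sections.** -/
theorem section_formula {p : ℕ} (hp : p.Prime) (X : Finset G)
    (hX : ∀ x ∈ X, ∃ k : ℕ, orderOf x = p ^ k)
    (hXrep : ∀ g : G, (∃ k : ℕ, orderOf g = p ^ k) → ∃! x, x ∈ X ∧ IsConj g x)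
    (F : G → ℂ) (hF : Cfsg.IsClassFunction G F) :
    ∑ g : G, F g = ∑ x ∈ X, (Nat.card G : ℂ) /
      (Nat.card (Subgroup.centralizer ({x} : Set G)) : ℂ) *
        ∑ᶠ s : Subgroup.centralizer ({x} : Set G),
          (if p ∣ orderOf s then 0 else F (x * (s : G))) := by
  classical
  have hpp : ∀ g : G, ∃ z, Cfsg.IsPPart p g z := fun g => exists_isPPart hp g
  choose z hz using hpp
  have hzp : ∀ g, ∃ k : ℕ, orderOf (z g) = p ^ k := fun g => by
    obtain ⟨y, -, -, h3, -⟩ := hz g
    exact h3
  have h4 : ∀ g : G, ∑ x ∈ X, (if IsConj x (z g) then (1 : ℂ) else 0) = 1 := by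
    intro g
    obtain ⟨x₀, ⟨hx₀, hc₀⟩, huniq⟩ := hXrep (z g) (hzp g)
    rw [Finset.sum_eq_single x₀]
    · rw [if_pos hc₀.symm]
    · intro x hx hne
      rw [if_neg]
      intro hc
      exact hne (huniq x ⟨hx, hc.symm⟩)
    · intro h
      exact absurd hx₀ h
  have h5 : ∀ x ∈ X, (Nat.card G : ℂ) / (Nat.card (Subgroup.centralizer ({x} : Set G)) : ℂ) *
      ∑ᶠ s : Subgroup.centralizer ({x} : Set G), (if p ∣ orderOf s then 0 else F (x * (s : G))) =
      ∑ g : G, F g * (if IsConj x (z g) then 1 else 0) := by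
    intro x hx
    letI : Fintype (Subgroup.centralizer ({x} : Set G)) := Fintype.ofFinite _
    rw [finsum_eq_sum_of_fintype]
    have hCx : (Nat.card (Subgroup.centralizer ({x} : Set G)) : ℂ) ≠ 0 := by
      exact_mod_cast Nat.card_pos.ne'
    have e3 : ∀ g : G, (if IsConj x (z g) then (1 : ℂ) else 0) =
        (Nat.card (Subgroup.centralizer ({x} : Set G)) : ℂ)⁻¹ *
          ∑ t : G, (if t⁻¹ * x * t = z g then (1 : ℂ) else 0) := by
      intro g
      have hc := card_conj_fiber x (z g)
      rw [Finset.sum_boole, hc]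
      split_ifs
      · rw [inv_mul_cancel₀ hCx]
      · simp
    have e2 : ∀ g t : G, (if t⁻¹ * x * t = z g then (1 : ℂ) else 0) =
        ∑ s : Subgroup.centralizer ({x} : Set G),
          (if ¬ p ∣ orderOf s ∧ t⁻¹ * (x * (s : G)) * t = g then (1 : ℂ) else 0) :=
      fun g t => (sec_fiber hp x (hX x hx) g (z g) t (hz g)).symm
    have e1 : ∀ (t : G) (s : Subgroup.centralizer ({x} : Set G)),
        ∑ g : G, F g * (if ¬ p ∣ orderOf s ∧ t⁻¹ * (x * (s : G)) * t = g then (1 : ℂ) else 0) =
        if p ∣ orderOf s then 0 else F (x * (s : G)) := by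
      intro t s
      by_cases hs : p ∣ orderOf s
      · rw [if_pos hs]
        apply Finset.sum_eq_zero
        intro g _
        rw [if_neg (fun h => h.1 hs), mul_zero]
      · rw [if_neg hs, Finset.sum_eq_single (t⁻¹ * (x * (s : G)) * t)]
        · rw [if_pos ⟨hs, rfl⟩, mul_one]
          have := hF (x * (s : G)) t⁻¹
          rwa [inv_inv] at this
        · intro g _ hg
          rw [if_neg (fun h => hg h.2.symm), mul_zero]
        · intro h
          exact absurd (Finset.mem_univ _) h
    simp_rw [e3, e2]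
    have e4 : ∑ g : G, F g * ((Nat.card (Subgroup.centralizer ({x} : Set G)) : ℂ)⁻¹ *
        ∑ t : G, ∑ s : Subgroup.centralizer ({x} : Set G),
          (if ¬ p ∣ orderOf s ∧ t⁻¹ * (x * (s : G)) * t = g then (1 : ℂ) else 0)) =
        (Nat.card (Subgroup.centralizer ({x} : Set G)) : ℂ)⁻¹ *
          ∑ t : G, ∑ s : Subgroup.centralizer ({x} : Set G), ∑ g : G,
            F g * (if ¬ p ∣ orderOf s ∧ t⁻¹ * (x * (s : G)) * t = g then (1 : ℂ) else 0) := by
      calc ∑ g : G, F g * ((Nat.card (Subgroup.centralizer ({x} : Set G)) : ℂ)⁻¹ *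
            ∑ t : G, ∑ s : Subgroup.centralizer ({x} : Set G),
              (if ¬ p ∣ orderOf s ∧ t⁻¹ * (x * (s : G)) * t = g then (1 : ℂ) else 0))
          = ∑ g : G, (Nat.card (Subgroup.centralizer ({x} : Set G)) : ℂ)⁻¹ *
            ∑ t : G, ∑ s : Subgroup.centralizer ({x} : Set G),
              F g * (if ¬ p ∣ orderOf s ∧ t⁻¹ * (x * (s : G)) * t = g then (1 : ℂ) else 0) := by
            refine Finset.sum_congr rfl fun g _ => ?_
            simp_rw [Finset.mul_sum]
            refine Finset.sum_congr rfl fun t _ => Finset.sum_congr rfl fun s _ => ?_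
            ring
        _ = (Nat.card (Subgroup.centralizer ({x} : Set G)) : ℂ)⁻¹ * ∑ g : G,
            ∑ t : G, ∑ s : Subgroup.centralizer ({x} : Set G),
              F g * (if ¬ p ∣ orderOf s ∧ t⁻¹ * (x * (s : G)) * t = g then (1 : ℂ) else 0) := by
            rw [Finset.mul_sum]
        _ = (Nat.card (Subgroup.centralizer ({x} : Set G)) : ℂ)⁻¹ * ∑ t : G,
            ∑ g : G, ∑ s : Subgroup.centralizer ({x} : Set G),
              F g * (if ¬ p ∣ orderOf s ∧ t⁻¹ * (x * (s : G)) * t = g then (1 : ℂ) else 0) := by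
            rw [Finset.sum_comm]
        _ = _ := by
            congr 1
            exact Finset.sum_congr rfl fun t _ => Finset.sum_comm
    rw [e4]
    simp_rw [e1]
    rw [Finset.sum_const, Finset.card_univ, nsmul_eq_mul, ← Nat.card_eq_fintype_card]
    field_simp
  rw [Finset.sum_congr rfl h5, Finset.sum_comm]
  refine Finset.sum_congr rfl fun g _ => ?_
  rw [← Finset.mul_sum, h4 g, mul_one]

end

end Cfsg.Agent.Lib.Helper76
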