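import Mathlib
import Cfsg.Prelude.Def_Blocks
import Cfsg.Agent.Lib.Helper76.SubSection
import Cfsg.Agent.Lib.Helper76.SectionSum
import Cfsg.Agent.Lib.Helper78.ThirdMain
import Cfsg.Agent.Lib.Helper80.Orthogonality
import Cfsg.Agent.S0923

/-!
# Counting the characters of a block by subsections
-/

set_option autoImplicit false

namespace Cfsg.Agent.Lib.Helper76

open Cfsg Cfsg.Agent.Lib.Helper16 Cfsg.Agent.Lib.Helper78 Cfsg.Agent.Lib.Helper81

section Pairing

variable {K : Type*} [Group K] [Fintype K] [Fintype (Cfsg.IrrCharacter K)]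

/-- bilinear expansion of the `p`-regular pairing -/
theorem pairing_expand (p : ℕ) (a a' : Cfsg.IrrCharacter K → ℂ) :
    ∑ s : K, (if p ∣ orderOf s then 0 else
        (∑ ψ : Cfsg.IrrCharacter K, a ψ * (ψ : K → ℂ) s) *
          (∑ ψ : Cfsg.IrrCharacter K, a' ψ * (ψ : K → ℂ) s⁻¹)) =
      ∑ ψ : Cfsg.IrrCharacter K, ∑ ψ' : Cfsg.IrrCharacter K, a ψ * a' ψ' *
        ∑ s : K, (if p ∣ orderOf s then 0 else (ψ : K → ℂ) s * (ψ' : K → ℂ) s⁻¹) := by
  have h1 : ∀ s : K, (if p ∣ orderOf s then (0 : ℂ) else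
        (∑ ψ : Cfsg.IrrCharacter K, a ψ * (ψ : K → ℂ) s) *
          (∑ ψ : Cfsg.IrrCharacter K, a' ψ * (ψ : K → ℂ) s⁻¹)) =
      ∑ ψ : Cfsg.IrrCharacter K, ∑ ψ' : Cfsg.IrrCharacter K, a ψ * a' ψ' *
        (if p ∣ orderOf s then 0 else (ψ : K → ℂ) s * (ψ' : K → ℂ) s⁻¹) := by
    intro s
    split_ifs
    · simp
    · rw [Finset.sum_mul_sum]
      refine Finset.sum_congr rfl fun ψ _ => Finset.sum_congr rfl fun ψ' _ => ?_
      ring
  simp_rw [h1]
  rw [Finset.sum_comm]
  refine Finset.sum_congr rfl fun ψ _ => ?_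
  rw [Finset.sum_comm]
  refine Finset.sum_congr rfl fun ψ' _ => ?_
  rw [Finset.mul_sum]

open scoped Classical in
/-- **Block decomposition of the `p`-regular pairing** of two class functions. -/
theorem pairing_block_decomp {p : ℕ} [Fact p.Prime] {M : Ideal Cfsg.AlgInt}
    (hM : Cfsg.IsPModular p M) (ϑ ϑ' : K → ℂ) (hϑ : Cfsg.IsClassFunction K ϑ)
    (hϑ' : Cfsg.IsClassFunction K ϑ') :
    ∑ s : K, (if p ∣ orderOf s then 0 else ϑ s * ϑ' s⁻¹) =
      ∑ b ∈ (Finset.univ.image (fun ψ : Cfsg.IrrCharacter K => Cfsg.blockOf M (ψ : K → ℂ))),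
        ∑ s : K, (if p ∣ orderOf s then 0 else
          Cfsg.blockPart b ϑ s * Cfsg.blockPart b ϑ' s⁻¹) := by
  have hP := isPrime_of_isPModular hM
  have hexp : ∀ (φ : K → ℂ), Cfsg.IsClassFunction K φ → ∀ s : K,
      φ s = ∑ ψ : Cfsg.IrrCharacter K, Cfsg.classInner φ (ψ : K → ℂ) * (ψ : K → ℂ) s :=
    fun φ hφ s => Cfsg.Agent.Lib.Helper80.classFun_expansion_apply φ hφ s
  have hbp : ∀ (b : Set (Cfsg.IrrCharacter K)) (φ : K → ℂ) (s : K),
      Cfsg.blockPart b φ s = ∑ ψ : Cfsg.IrrCharacter K,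
        (if ψ ∈ b then Cfsg.classInner φ (ψ : K → ℂ) else 0) * (ψ : K → ℂ) s := by
    intro b φ s
    have h0 : Cfsg.blockPart b φ s =
        ∑ᶠ χ ∈ b, Cfsg.classInner φ (χ : K → ℂ) * (χ : K → ℂ) s := by
      unfold Cfsg.blockPart
      have : (Fintype.ofFinite K) = ‹Fintype K› := Subsingleton.elim _ _
      rw [this]
    rw [h0, finsum_mem_eq_sum_ite]
    refine Finset.sum_congr rfl fun ψ _ => ?_
    split_ifs
    · rfl
    · rw [zero_mul]
  have hW : ∀ ψ ψ' : Cfsg.IrrCharacter K, ψ' ∉ Cfsg.blockOf M (ψ : K → ℂ) →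
      ∑ s : K, (if p ∣ orderOf s then 0 else (ψ : K → ℂ) s * (ψ' : K → ℂ) s⁻¹) = 0 := by
    intro ψ ψ' h
    have := weak_block_orth hM (Cfsg.blockOf M (ψ : K → ℂ)) (isPBlock_blockOf ψ) ψ
      (mem_blockOf_self hP ψ) ψ' h
    refine Eq.trans (Finset.sum_congr rfl fun s _ => ?_) this
    split_ifs
    · rw [zero_mul]
    · rfl
  have hL : ∑ s : K, (if p ∣ orderOf s then 0 else ϑ s * ϑ' s⁻¹) =
      ∑ s : K, (if p ∣ orderOf s then 0 else
        (∑ ψ : Cfsg.IrrCharacter K, Cfsg.classInner ϑ (ψ : K → ℂ) * (ψ : K → ℂ) s) *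
          (∑ ψ : Cfsg.IrrCharacter K, Cfsg.classInner ϑ' (ψ : K → ℂ) * (ψ : K → ℂ) s⁻¹)) := by
    refine Finset.sum_congr rfl fun s _ => ?_
    rw [← hexp ϑ hϑ s, ← hexp ϑ' hϑ' s⁻¹]
  rw [hL, pairing_expand]
  simp_rw [hbp, pairing_expand]
  symm
  rw [Finset.sum_comm]
  refine Finset.sum_congr rfl fun ψ _ => ?_
  rw [Finset.sum_comm]
  refine Finset.sum_congr rfl fun ψ' _ => ?_
  rw [Finset.sum_eq_single (Cfsg.blockOf M (ψ : K → ℂ))]
  · rw [if_pos (mem_blockOf_self hP ψ)]
    by_cases h : ψ' ∈ Cfsg.blockOf M (ψ : K → ℂ)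
    · rw [if_pos h]
    · rw [hW ψ ψ' h, mul_zero, mul_zero]
  · intro b hb hne
    rw [Finset.mem_image] at hb
    obtain ⟨ψ₀, -, rfl⟩ := hb
    have hψ : ψ ∉ Cfsg.blockOf M (ψ₀ : K → ℂ) := by
      intro hmem
      exact hne (IsPBlock.eq_blockOf hP (isPBlock_blockOf ψ₀) hmem)
    rw [if_neg hψ, zero_mul, zero_mul]
  · intro h
    exact absurd (Finset.mem_image_of_mem _ (Finset.mem_univ ψ)) h

end Pairing

section Count

variable {G : Type*} [Group G] [Fintype G]

open scoped Classical in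
/-- **One section's contribution to the character count of a block.** -/
theorem block_count_section {p : ℕ} [Fact p.Prime] {M : Ideal Cfsg.AlgInt}
    (hM : Cfsg.IsPModular p M) (B : Set (Cfsg.IrrCharacter G)) (hB : Cfsg.IsPBlock M B) (x : G)
    (hx : ∃ k : ℕ, orderOf x = p ^ k) :
    ∑ᶠ χ ∈ B, ∑ᶠ s : Subgroup.centralizer ({x} : Set G),
        (if p ∣ orderOf s then 0 else
          (χ : G → ℂ) (x * (s : G)) * (χ : G → ℂ) (x * (s : G))⁻¹) =
      (Nat.card (Subgroup.centralizer ({x} : Set G)) : ℂ) *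
        ((∑ᶠ b ∈ {b : Set (Cfsg.IrrCharacter (Subgroup.centralizer ({x} : Set G))) |
          Cfsg.IsInducedBlock M (Subgroup.centralizer ({x} : Set G)) b B},
            Cfsg.blockRank p b : ℕ) : ℂ) := by
  have hP := isPrime_of_isPModular hM
  letI : Fintype (Subgroup.centralizer ({x} : Set G)) := Fintype.ofFinite _
  have := irr_finite G
  letI : Fintype (Cfsg.IrrCharacter G) := Fintype.ofFinite _
  have := irr_finite (Subgroup.centralizer ({x} : Set G))
  letI : Fintype (Cfsg.IrrCharacter (Subgroup.centralizer ({x} : Set G))) := Fintype.ofFinite _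
  have hC : ∀ g : G, g ∈ Subgroup.centralizer ({x} : Set G) ↔ g * x = x * g := by
    intro g
    rw [Subgroup.mem_centralizer_iff]
    constructor
    · intro h
      exact (h x rfl).symm
    · intro h m hm
      rw [Set.mem_singleton_iff] at hm
      rw [hm]
      exact h.symm
  have hcomm : ∀ c : Subgroup.centralizer ({x} : Set G), x * (c : G) = (c : G) * x :=
    fun c => ((hC c).1 c.2).symm
  have hcomm' : ∀ c : Subgroup.centralizer ({x} : Set G), x⁻¹ * (c : G) = (c : G) * x⁻¹ := by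
    intro c
    calc x⁻¹ * (c : G) = x⁻¹ * ((c : G) * x) * x⁻¹ := by group
      _ = x⁻¹ * (x * (c : G)) * x⁻¹ := by rw [hcomm c]
      _ = (c : G) * x⁻¹ := by group
  have hφ : ∀ (χ : Cfsg.IrrCharacter G) (y : G),
      (∀ c : Subgroup.centralizer ({x} : Set G), y * (c : G) = (c : G) * y) →
      Cfsg.IsClassFunction (Subgroup.centralizer ({x} : Set G))
        (fun c : Subgroup.centralizer ({x} : Set G) => (χ : G → ℂ) (y * (c : G))) := by
    intro χ y hy c t
    show (χ : G → ℂ) (y * ((t * c * t⁻¹ : Subgroup.centralizer ({x} : Set G)) : G)) =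
      (χ : G → ℂ) (y * (c : G))
    have e1 : y * ((t * c * t⁻¹ : Subgroup.centralizer ({x} : Set G)) : G) =
        (t : G) * (y * (c : G)) * (t : G)⁻¹ := by
      push_cast
      rw [← mul_assoc, ← mul_assoc, hy t]
      simp only [mul_assoc]
    rw [e1]
    exact irr_conj_class χ _ _
  have hSeq : {b : Set (Cfsg.IrrCharacter (Subgroup.centralizer ({x} : Set G))) |
      Cfsg.IsInducedBlock M (Subgroup.centralizer ({x} : Set G)) b B} =
      ↑((Finset.univ.image (fun ψ : Cfsg.IrrCharacter (Subgroup.centralizer ({x} : Set G)) =>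
        Cfsg.blockOf M (ψ : Subgroup.centralizer ({x} : Set G) → ℂ))).filter
          (fun b => Cfsg.IsInducedBlock M (Subgroup.centralizer ({x} : Set G)) b B)) := by
    ext b
    simp only [Finset.coe_filter, Set.mem_ofPred_eq]
    constructor
    · intro hb
      refine ⟨?_, hb⟩
      obtain ⟨ψ, rfl⟩ := hb.1
      exact Finset.mem_image_of_mem _ (Finset.mem_univ ψ)
    · exact fun h => h.2
  -- each χ ∈ B
  have h1 : ∀ χ ∈ B, ∑ s : Subgroup.centralizer ({x} : Set G),
        (if p ∣ orderOf s then 0 else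
          (χ : G → ℂ) (x * (s : G)) * (χ : G → ℂ) (x * (s : G))⁻¹) =
      ∑ b ∈ (Finset.univ.image (fun ψ : Cfsg.IrrCharacter (Subgroup.centralizer ({x} : Set G)) =>
        Cfsg.blockOf M (ψ : Subgroup.centralizer ({x} : Set G) → ℂ))).filter
          (fun b => Cfsg.IsInducedBlock M (Subgroup.centralizer ({x} : Set G)) b B),
        ∑ s : Subgroup.centralizer ({x} : Set G), (if p ∣ orderOf s then 0 else
          Cfsg.blockPart b (fun c : Subgroup.centralizer ({x} : Set G) =>
            (χ : G → ℂ) (x * (c : G))) s *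
          Cfsg.blockPart b (fun c : Subgroup.centralizer ({x} : Set G) =>
            (χ : G → ℂ) (x⁻¹ * (c : G))) s⁻¹) := by
    intro χ hχ
    have e1 : ∑ s : Subgroup.centralizer ({x} : Set G),
        (if p ∣ orderOf s then 0 else
          (χ : G → ℂ) (x * (s : G)) * (χ : G → ℂ) (x * (s : G))⁻¹) =
        ∑ s : Subgroup.centralizer ({x} : Set G), (if p ∣ orderOf s then 0 else
          (fun c : Subgroup.centralizer ({x} : Set G) => (χ : G → ℂ) (x * (c : G))) s *
          (fun c : Subgroup.centralizer ({x} : Set G) => (χ : G → ℂ) (x⁻¹ * (c : G))) s⁻¹) := by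
      refine Finset.sum_congr rfl fun s _ => ?_
      have e2 : (x * (s : G))⁻¹ = x⁻¹ * ((s⁻¹ : Subgroup.centralizer ({x} : Set G)) : G) := by
        rw [hcomm' s⁻¹, Subgroup.coe_inv, mul_inv_rev]
      rw [e2]
    rw [e1, pairing_block_decomp hM _ _ (hφ χ x hcomm) (hφ χ x⁻¹ hcomm'), Finset.sum_filter]
    refine Finset.sum_congr rfl fun b hb => ?_
    split_ifs with hbS
    · rfl
    · obtain ⟨ψ, -, rfl⟩ := Finset.mem_image.1 hb
      apply Finset.sum_eq_zero
      intro s _
      split_ifs with hs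
      · rfl
      · rw [Cfsg.Agent.S0923.result p M hM x hx B hB χ hχ _ (isPBlock_blockOf ψ) hbS s hs,
          zero_mul]
  -- the contribution of each block inducing `B`
  have h2 : ∀ b : Set (Cfsg.IrrCharacter (Subgroup.centralizer ({x} : Set G))),
      Cfsg.IsInducedBlock M (Subgroup.centralizer ({x} : Set G)) b B →
      ∑ χ : Cfsg.IrrCharacter G, (if χ ∈ B then
        ∑ s : Subgroup.centralizer ({x} : Set G), (if p ∣ orderOf s then 0 else
          Cfsg.blockPart b (fun c : Subgroup.centralizer ({x} : Set G) =>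
            (χ : G → ℂ) (x * (c : G))) s *
          Cfsg.blockPart b (fun c : Subgroup.centralizer ({x} : Set G) =>
            (χ : G → ℂ) (x⁻¹ * (c : G))) s⁻¹) else 0) =
      (Nat.card (Subgroup.centralizer ({x} : Set G)) : ℂ) * (Cfsg.blockRank p b : ℂ) := by
    intro b hb
    rw [← subsection_sum hM B x hx _ hC b hb, finsum_mem_eq_sum_ite]
    refine Finset.sum_congr rfl fun χ _ => ?_
    split_ifs
    · rw [finsum_eq_sum_of_fintype]
      refine Finset.sum_congr rfl fun s _ => ?_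
      unfold Cfsg.pRegularPart Cfsg.IsPRegular
      by_cases hs : p ∣ orderOf s <;> simp [hs]
    · rfl
  rw [(finsum_mem_congr hSeq (fun _ _ => rfl)).trans (finsum_mem_coe_finset _ _), Nat.cast_sum,
    Finset.mul_sum]
  rw [finsum_mem_eq_sum_ite]
  simp_rw [finsum_eq_sum_of_fintype]
  have h3 : ∀ χ : Cfsg.IrrCharacter G, (if χ ∈ B then
      ∑ s : Subgroup.centralizer ({x} : Set G), (if p ∣ orderOf s then 0 else
        (χ : G → ℂ) (x * (s : G)) * (χ : G → ℂ) (x * (s : G))⁻¹) else 0) =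
      ∑ b ∈ (Finset.univ.image (fun ψ : Cfsg.IrrCharacter (Subgroup.centralizer ({x} : Set G)) =>
        Cfsg.blockOf M (ψ : Subgroup.centralizer ({x} : Set G) → ℂ))).filter
          (fun b => Cfsg.IsInducedBlock M (Subgroup.centralizer ({x} : Set G)) b B),
        (if χ ∈ B then
          ∑ s : Subgroup.centralizer ({x} : Set G), (if p ∣ orderOf s then 0 else
            Cfsg.blockPart b (fun c : Subgroup.centralizer ({x} : Set G) =>
              (χ : G → ℂ) (x * (c : G))) s *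
            Cfsg.blockPart b (fun c : Subgroup.centralizer ({x} : Set G) =>
              (χ : G → ℂ) (x⁻¹ * (c : G))) s⁻¹) else 0) := by
    intro χ
    by_cases hχ : χ ∈ B
    · simp only [if_pos hχ]
      exact h1 χ hχ
    · simp only [if_neg hχ, Finset.sum_const_zero]
  rw [Finset.sum_congr rfl fun χ _ => h3 χ, Finset.sum_comm]
  refine Finset.sum_congr rfl fun b hb => ?_
  exact h2 b (Finset.mem_filter.1 hb).2

end Count

end Cfsg.Agent.Lib.Helper76
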