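import Mathlib
import Cfsg.Agent.Lib.Helper76.BrauerFeit
import Cfsg.Agent.Lib.Helper76.BlockSections
import Cfsg.Agent.S4667

/-!
# Blocks of defect one for the prime two, and auxiliary counting lemmas

* `pRegular_min_data'`: the minimal truncation data of `pRegular_min_data` together with the
  expansion itself.
* `defect_one_two`: a `2`-block of defect one consists of two characters which agree on the
  elements of odd order and are opposite on the elements of even order.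
* `blockRank_pos`, `blockRank_pair_eq_one`, `induced_count_at_one`, `exists_section_reps`.
-/

set_option autoImplicit false

namespace Cfsg.Agent.Lib.Helper76

open Cfsg Cfsg.Agent.Lib.Helper16 Cfsg.Agent.Lib.Helper26 Cfsg.Agent.Lib.Helper78
open scoped ComplexConjugate

section

variable {G : Type*} [Group G] [Fintype G]

/-- Data for an arbitrary base character `ξ ∈ B`, with the expansion: the coefficients of the
minimal truncation `p ^ (a - b) * ξ⁰` vanish outside `B`, are nonzero at the height-zero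
characters, and their squares sum to `p ^ (a - b)` times the coefficient at `ξ`. -/
theorem pRegular_min_data' [Fintype (Cfsg.IrrCharacter G)] {p : ℕ} [Fact p.Prime]
    {M : Ideal Cfsg.AlgInt} (hM : Cfsg.IsPModular p M) (B : Set (Cfsg.IrrCharacter G))
    (hB : Cfsg.IsPBlock M B) (ξ : Cfsg.IrrCharacter G) (hξ : ξ ∈ B) :
    ∃ c : Cfsg.IrrCharacter G → ℤ,
      (∀ ψ, ψ ∉ B → c ψ = 0) ∧
      (∀ x : G, (if p ∣ orderOf x then (0 : ℂ) else
        ((p ^ ((Nat.card G).factorization p -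
          (Cfsg.charDegree (ξ : G → ℂ)).factorization p) : ℕ) : ℂ) * (ξ : G → ℂ) x) =
          ∑ ψ : Cfsg.IrrCharacter G, (c ψ : ℂ) * (ψ : G → ℂ) x) ∧
      (∀ ψ, ψ ∈ B → Cfsg.blockHeight p B (ψ : G → ℂ) = 0 → c ψ ≠ 0) ∧
      ∑ ψ : Cfsg.IrrCharacter G, (c ψ) ^ 2 =
        (p : ℤ) ^ ((Nat.card G).factorization p -
          (Cfsg.charDegree (ξ : G → ℂ)).factorization p) * c ξ := by
  classical
  have hp : p.Prime := Fact.out
  obtain ⟨c, hc0, hcexp⟩ := pRegular_block_expansion_min p M hM B hB ξ hξ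
  set e := (Nat.card G).factorization p - (Cfsg.charDegree (ξ : G → ℂ)).factorization p with he
  have hfun : (fun x : G => if p ∣ orderOf x then (0 : ℂ) else
      ((p ^ e : ℕ) : ℂ) * (ξ : G → ℂ) x) =
      ∑ ψ : Cfsg.IrrCharacter G, (c ψ : ℂ) • (ψ : G → ℂ) := by
    funext x
    rw [hcexp x, Finset.sum_apply]
    rfl
  have hinner : ∀ ψ : Cfsg.IrrCharacter G, Cfsg.classInner (fun x : G => if p ∣ orderOf x then
      (0 : ℂ) else ((p ^ e : ℕ) : ℂ) * (ξ : G → ℂ) x) (ψ : G → ℂ) = (c ψ : ℂ) := by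
    intro ψ
    rw [hfun, classInner_expansion_irr]
  refine ⟨c, hc0, hcexp, fun ψ hψ h0 hcz => ?_, ?_⟩
  · obtain ⟨n, hn, hn0, -⟩ := (inner_val_iff hM B hB ψ hψ ξ hξ).mpr
      ((height_zero_iff hM B hB ψ hψ).mp h0)
    have hsw := classInner_trunc_swap p (p ^ e) (p ^ (Nat.card G).factorization p)
      (ξ : G → ℂ) (ψ : G → ℂ)
    rw [hinner ψ, hcz, hn] at hsw
    simp only [Int.cast_zero, map_zero, mul_zero] at hsw
    have hpe : ((p ^ e : ℕ) : ℂ) ≠ 0 := by exact_mod_cast (pow_pos hp.pos e).ne'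
    rcases mul_eq_zero.mp hsw.symm with h | h
    · exact hpe h
    · exact hn0 (by exact_mod_cast h)
  · have h1 := classInner_trunc_self' p (p ^ e) (ξ : G → ℂ)
    rw [hinner ξ] at h1
    rw [hfun, classInner_expansion] at h1
    have h2 : ((∑ ψ : Cfsg.IrrCharacter G, (c ψ) ^ 2 : ℤ) : ℂ) = (((p : ℤ) ^ e * c ξ : ℤ) : ℂ) := by
      push_cast
      rw [show ((p : ℂ) ^ e * (c ξ : ℂ)) = ((p ^ e : ℕ) : ℂ) * (c ξ : ℂ) by push_cast; ring, ← h1]
      refine Finset.sum_congr rfl fun ψ _ => ?_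
      rw [map_intCast]
      ring
    exact_mod_cast h2

/-- **Blocks of defect one for `p = 2`**: such a block consists of exactly two characters; they
agree on the elements of odd order and are opposite on the elements of even order. -/
theorem defect_one_two {M : Ideal Cfsg.AlgInt} (hM : Cfsg.IsPModular 2 M)
    (b : Set (Cfsg.IrrCharacter G)) (hb : Cfsg.IsPBlock M b) (hd : Cfsg.blockDefect 2 b = 1) :
    ∃ θ₁ θ₂ : Cfsg.IrrCharacter G, θ₁ ≠ θ₂ ∧ b = {θ₁, θ₂} ∧
      (∀ s : G, ¬ 2 ∣ orderOf s → (θ₁ : G → ℂ) s = (θ₂ : G → ℂ) s) ∧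
      (∀ s : G, 2 ∣ orderOf s → (θ₁ : G → ℂ) s = -(θ₂ : G → ℂ) s) := by
  classical
  haveI : Fact (Nat.Prime 2) := ⟨Nat.prime_two⟩
  have hMp := isPrime_of_isPModular hM
  have := Cfsg.Agent.Lib.Helper81.irr_finite G
  letI : Fintype (Cfsg.IrrCharacter G) := Fintype.ofFinite _
  obtain ⟨ξ, hξ⟩ := IsPBlock.nonempty hMp hb
  have hle : ∀ ψ ∈ b, sInf ((fun χ : Cfsg.IrrCharacter G =>
      (Cfsg.charDegree (χ : G → ℂ)).factorization 2) '' b) ≤
      (Cfsg.charDegree (ψ : G → ℂ)).factorization 2 := fun ψ hψ => Nat.sInf_le ⟨ψ, hψ, rfl⟩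
  have hdm : (Nat.card G).factorization 2 - sInf ((fun χ : Cfsg.IrrCharacter G =>
      (Cfsg.charDegree (χ : G → ℂ)).factorization 2) '' b) = 1 := hd
  have hht : ∀ ψ ∈ b, Cfsg.blockHeight 2 b (ψ : G → ℂ) = 0 := by
    intro ψ hψ
    apply height_zero_of_near_full hM b hb ψ hψ
    have := hle ψ hψ
    omega
  have hξh : (Cfsg.charDegree (ξ : G → ℂ)).factorization 2 - sInf ((fun χ : Cfsg.IrrCharacter G =>
      (Cfsg.charDegree (χ : G → ℂ)).factorization 2) '' b) = 0 := hht ξ hξ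
  have he : (Nat.card G).factorization 2 - (Cfsg.charDegree (ξ : G → ℂ)).factorization 2 = 1 := by
    have := hle ξ hξ
    omega
  obtain ⟨c, hc0, hcexp, hcne, hcsum⟩ := pRegular_min_data' hM b hb ξ hξ
  rw [he] at hcexp hcsum
  have hcsum' : ∑ ψ : Cfsg.IrrCharacter G, (c ψ) ^ 2 = 2 * c ξ := by
    rw [hcsum]; norm_num
  have hcξ : c ξ ≠ 0 := hcne ξ hξ (hht ξ hξ)
  have hsplit : c ξ ^ 2 + ∑ ψ ∈ Finset.univ.erase ξ, (c ψ) ^ 2 =
      ∑ ψ : Cfsg.IrrCharacter G, (c ψ) ^ 2 :=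
    Finset.add_sum_erase Finset.univ (fun ψ => (c ψ) ^ 2) (Finset.mem_univ ξ)
  have hRnn : 0 ≤ ∑ ψ ∈ Finset.univ.erase ξ, (c ψ) ^ 2 :=
    Finset.sum_nonneg fun ψ _ => sq_nonneg _
  have hdeg : ∀ ψ : Cfsg.IrrCharacter G, (ψ : G → ℂ) 1 = (Cfsg.charDegree (ψ : G → ℂ) : ℂ) ∧
      0 < Cfsg.charDegree (ψ : G → ℂ) := fun ψ =>
    ⟨(Cfsg.Agent.Lib.Helper79.irr_charDegree ψ.2).1, (Cfsg.Agent.Lib.Helper79.irr_charDegree ψ.2).2.1⟩
  have h1reg : ¬ 2 ∣ orderOf (1 : G) := by rw [orderOf_one]; norm_num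
  have hcpos : 0 < c ξ := by
    have : 0 < c ξ ^ 2 := by positivity
    nlinarith
  have hc12 : c ξ = 1 ∨ c ξ = 2 := by
    have : c ξ ≤ 2 := by nlinarith
    omega
  rcases hc12 with h1 | h2
  · -- exactly one further character
    have hR : ∑ ψ ∈ Finset.univ.erase ξ, (c ψ) ^ 2 = 1 := by
      rw [h1] at hsplit hcsum'; linarith
    have hex : ∃ ψ₀ ∈ Finset.univ.erase ξ, c ψ₀ ≠ 0 := by
      by_contra hcon
      push Not at hcon
      rw [Finset.sum_eq_zero (fun ψ hψ => by rw [hcon ψ hψ]; ring)] at hR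
      exact zero_ne_one hR
    obtain ⟨ψ₀, hψ₀, hcψ₀⟩ := hex
    have hsplit2 : c ψ₀ ^ 2 + ∑ ψ ∈ (Finset.univ.erase ξ).erase ψ₀, (c ψ) ^ 2 =
        ∑ ψ ∈ Finset.univ.erase ξ, (c ψ) ^ 2 :=
      Finset.add_sum_erase (Finset.univ.erase ξ) (fun ψ => (c ψ) ^ 2) hψ₀
    have hR'nn : 0 ≤ ∑ ψ ∈ (Finset.univ.erase ξ).erase ψ₀, (c ψ) ^ 2 :=
      Finset.sum_nonneg fun ψ _ => sq_nonneg _
    have hc0sq : 1 ≤ c ψ₀ ^ 2 := by
      have : 0 < c ψ₀ ^ 2 := by positivity
      omega
    have hR' : ∑ ψ ∈ (Finset.univ.erase ξ).erase ψ₀, (c ψ) ^ 2 = 0 := by linarith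
    have hc0one : c ψ₀ ^ 2 = 1 := by linarith
    have hothers : ∀ ψ : Cfsg.IrrCharacter G, ψ ≠ ξ → ψ ≠ ψ₀ → c ψ = 0 := by
      intro ψ hψξ hψψ₀
      have hmem : ψ ∈ (Finset.univ.erase ξ).erase ψ₀ :=
        Finset.mem_erase.mpr ⟨hψψ₀, Finset.mem_erase.mpr ⟨hψξ, Finset.mem_univ ψ⟩⟩
      have := (Finset.sum_eq_zero_iff_of_nonneg (fun ψ _ => sq_nonneg (c ψ))).mp hR' ψ hmem
      exact pow_eq_zero_iff (two_ne_zero) |>.mp this
    have hneq : ξ ≠ ψ₀ := fun h => (Finset.mem_erase.mp hψ₀).1 h.symm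
    have hexp2 : ∀ x : G, ∑ ψ : Cfsg.IrrCharacter G, (c ψ : ℂ) * (ψ : G → ℂ) x =
        (ξ : G → ℂ) x + (c ψ₀ : ℂ) * (ψ₀ : G → ℂ) x := by
      intro x
      rw [Finset.sum_eq_add ξ ψ₀ hneq (fun ψ _ h => by rw [hothers ψ h.1 h.2]; simp)
        (fun h => absurd (Finset.mem_univ _) h) (fun h => absurd (Finset.mem_univ _) h), h1]
      simp
    have hψ₀b : ψ₀ ∈ b := by
      by_contra h
      exact hcψ₀ (hc0 ψ₀ h)
    -- the sign
    have hsign : c ψ₀ = 1 := by
      have hpm : c ψ₀ = 1 ∨ c ψ₀ = -1 := by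
        have h6 : (c ψ₀ - 1) * (c ψ₀ + 1) = 0 := by linear_combination hc0one
        rcases mul_eq_zero.mp h6 with h | h
        · left; omega
        · right; omega
      rcases hpm with h | h
      · exact h
      · exfalso
        have h3 := hcexp 1
        rw [if_neg h1reg, hexp2 1, h, (hdeg ξ).1, (hdeg ψ₀).1] at h3
        have h4 : ((Cfsg.charDegree (ξ : G → ℂ) + Cfsg.charDegree (ψ₀ : G → ℂ) : ℕ) : ℂ) = 0 := by
          push_cast at h3 ⊢
          linear_combination h3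
        have h5 : Cfsg.charDegree (ξ : G → ℂ) + Cfsg.charDegree (ψ₀ : G → ℂ) = 0 := by
          exact_mod_cast h4
        have := (hdeg ξ).2
        omega
    refine ⟨ξ, ψ₀, hneq, ?_, ?_, ?_⟩
    · ext ψ
      constructor
      · intro hψ
        by_contra hn
        rw [Set.mem_insert_iff, Set.mem_singleton_iff] at hn
        push Not at hn
        exact hcne ψ hψ (hht ψ hψ) (hothers ψ hn.1 hn.2)
      · intro hψ
        rcases hψ with rfl | hψ
        · exact hξ
        · rw [Set.mem_singleton_iff] at hψ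
          rw [hψ]; exact hψ₀b
    · intro s hs
      have h3 := hcexp s
      rw [if_neg hs, hexp2 s, hsign] at h3
      push_cast at h3
      linear_combination h3
    · intro s hs
      have h3 := hcexp s
      rw [if_pos hs, hexp2 s, hsign] at h3
      push_cast at h3
      linear_combination -h3
  · -- `c ξ = 2` forces `ξ` to vanish on singular elements: defect zero
    exfalso
    have hR : ∑ ψ ∈ Finset.univ.erase ξ, (c ψ) ^ 2 = 0 := by
      rw [h2] at hsplit hcsum'; linarith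
    have hothers : ∀ ψ : Cfsg.IrrCharacter G, ψ ≠ ξ → c ψ = 0 := by
      intro ψ hψξ
      have hmem : ψ ∈ Finset.univ.erase ξ := Finset.mem_erase.mpr ⟨hψξ, Finset.mem_univ ψ⟩
      have := (Finset.sum_eq_zero_iff_of_nonneg (fun ψ _ => sq_nonneg (c ψ))).mp hR ψ hmem
      exact pow_eq_zero_iff (two_ne_zero) |>.mp this
    have hv : ∀ g : G, 2 ∣ orderOf g → (ξ : G → ℂ) g = 0 := by
      intro g hg
      have h3 := hcexp g
      rw [if_pos hg, Finset.sum_eq_single ξ (fun ψ _ h => by rw [hothers ψ h]; simp)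
        (fun h => absurd (Finset.mem_univ _) h), h2] at h3
      have h4 : (2 : ℂ) * (ξ : G → ℂ) g = 0 := by
        rw [h3]; push_cast; ring
      rcases mul_eq_zero.mp h4 with h | h
      · norm_num at h
      · exact h
    obtain ⟨z, hz⟩ := dvd_degree_of_vanish_singular 2 (ξ : G → ℂ) (isGen_of_irr ξ.2) hv
    rw [(hdeg ξ).1] at hz
    have hz' : (Cfsg.charDegree (ξ : G → ℂ) : ℤ) = (2 : ℤ) ^ (Nat.card G).factorization 2 * z := by
      have : ((Cfsg.charDegree (ξ : G → ℂ) : ℤ) : ℂ) =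
          (((2 : ℤ) ^ (Nat.card G).factorization 2 * z : ℤ) : ℂ) := by
        push_cast; rw [hz]; push_cast; ring
      exact_mod_cast this
    have hdvd : (2 : ℕ) ^ (Nat.card G).factorization 2 ∣ Cfsg.charDegree (ξ : G → ℂ) := by
      have : ((2 ^ (Nat.card G).factorization 2 : ℕ) : ℤ) ∣ (Cfsg.charDegree (ξ : G → ℂ) : ℤ) :=
        ⟨z, by rw [hz']; push_cast; ring⟩
      exact_mod_cast this
    have := (Nat.Prime.pow_dvd_iff_le_factorization Nat.prime_two (hdeg ξ).2.ne').mp hdvd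
    omega

end

section Rank

variable {G : Type*} [Group G] [Finite G]

/-- The `p`-regular rank of a block is positive. -/
theorem blockRank_pos {p : ℕ} (hp : p.Prime) {M : Ideal Cfsg.AlgInt} (hMp : M.IsPrime)
    (B : Set (Cfsg.IrrCharacter G)) (hB : Cfsg.IsPBlock M B) : 0 < Cfsg.blockRank p B := by
  classical
  obtain ⟨χ, hχ⟩ := IsPBlock.nonempty hMp hB
  unfold Cfsg.blockRank
  rw [Module.finrank_pos_iff_exists_ne_zero]
  refine ⟨⟨Cfsg.pRegularPart p (χ : G → ℂ), Submodule.subset_span ⟨χ, hχ, rfl⟩⟩, ?_⟩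
  intro h
  have h1 : Cfsg.pRegularPart p (χ : G → ℂ) = 0 := congrArg Subtype.val h
  have h2 := congrFun h1 1
  have hreg : Cfsg.IsPRegular p (1 : G) := by
    unfold Cfsg.IsPRegular
    rw [orderOf_one]
    exact fun h => hp.one_lt.ne' (Nat.dvd_one.mp h)
  unfold Cfsg.pRegularPart at h2
  simp only [if_pos hreg, Pi.zero_apply] at h2
  obtain ⟨h3, h4, -⟩ := Cfsg.Agent.Lib.Helper79.irr_charDegree χ.2
  rw [h3] at h2
  have : Cfsg.charDegree (χ : G → ℂ) = 0 := by exact_mod_cast h2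
  omega

/-- Two characters with the same `p`-regular part span a block of `p`-regular rank one. -/
theorem blockRank_pair_eq_one {p : ℕ} (hp : p.Prime) (θ₁ θ₂ : Cfsg.IrrCharacter G)
    (hreg : ∀ s : G, ¬ p ∣ orderOf s → (θ₁ : G → ℂ) s = (θ₂ : G → ℂ) s) :
    Cfsg.blockRank p ({θ₁, θ₂} : Set (Cfsg.IrrCharacter G)) = 1 := by
  classical
  have e : Cfsg.pRegularPart p (θ₂ : G → ℂ) = Cfsg.pRegularPart p (θ₁ : G → ℂ) := by
    funext s
    unfold Cfsg.pRegularPart
    by_cases h : Cfsg.IsPRegular p s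
    · simp only [if_pos h]
      exact (hreg s h).symm
    · simp only [if_neg h]
  have hv : Cfsg.pRegularPart p (θ₁ : G → ℂ) ≠ 0 := by
    intro h1
    have h2 := congrFun h1 1
    have hreg1 : Cfsg.IsPRegular p (1 : G) := by
      unfold Cfsg.IsPRegular
      rw [orderOf_one]
      exact fun h => hp.one_lt.ne' (Nat.dvd_one.mp h)
    unfold Cfsg.pRegularPart at h2
    simp only [if_pos hreg1, Pi.zero_apply] at h2
    obtain ⟨h3, h4, -⟩ := Cfsg.Agent.Lib.Helper79.irr_charDegree θ₁.2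
    rw [h3] at h2
    have : Cfsg.charDegree (θ₁ : G → ℂ) = 0 := by exact_mod_cast h2
    omega
  unfold Cfsg.blockRank
  rw [Set.image_pair, e, Set.pair_eq_singleton, finrank_span_singleton hv]

/-- A set of representatives of the classes of `p`-elements containing a given `p`-element. -/
theorem exists_section_reps (p : ℕ) (x : G) (hx : ∃ k : ℕ, orderOf x = p ^ k) :
    ∃ X : Finset G, x ∈ X ∧ (∀ y ∈ X, ∃ k : ℕ, orderOf y = p ^ k) ∧
      ∀ g : G, (∃ k : ℕ, orderOf g = p ^ k) → ∃! y, y ∈ X ∧ IsConj g y := by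
  classical
  letI : Fintype G := Fintype.ofFinite G
  have hord : ∀ g h : G, IsConj g h → orderOf g = orderOf h := by
    intro g h hc
    obtain ⟨c, hc⟩ := isConj_iff.mp hc
    rw [← hc]
    exact (orderOf_injective (MulAut.conj c).toMonoidHom (MulAut.conj c).injective g).symm
  let r : G → G := fun g => if IsConj g x then x else Quotient.out (ConjClasses.mk g)
  have hr1 : ∀ g : G, IsConj g (r g) := by
    intro g
    by_cases h : IsConj g x
    · simp only [r, if_pos h]; exact h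
    · simp only [r, if_neg h]
      have : ConjClasses.mk (Quotient.out (ConjClasses.mk g)) = ConjClasses.mk g :=
        Quotient.out_eq (ConjClasses.mk g)
      exact (ConjClasses.mk_eq_mk_iff_isConj.mp this).symm
  have hr2 : ∀ g h : G, IsConj g h → r g = r h := by
    intro g h hc
    by_cases hg : IsConj g x
    · have hh : IsConj h x := hc.symm.trans hg
      simp only [r, if_pos hg, if_pos hh]
    · have hh : ¬ IsConj h x := fun hh => hg (hc.trans hh)
      simp only [r, if_neg hg, if_neg hh]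
      rw [ConjClasses.mk_eq_mk_iff_isConj.mpr hc]
  refine ⟨(Finset.univ.filter (fun g : G => ∃ k : ℕ, orderOf g = p ^ k)).image r, ?_, ?_, ?_⟩
  · rw [Finset.mem_image]
    refine ⟨x, Finset.mem_filter.mpr ⟨Finset.mem_univ _, hx⟩, ?_⟩
    simp only [r, if_pos (IsConj.refl x)]
  · intro y hy
    rw [Finset.mem_image] at hy
    obtain ⟨g, hg, rfl⟩ := hy
    obtain ⟨k, hk⟩ := (Finset.mem_filter.mp hg).2
    exact ⟨k, by rw [← hord g (r g) (hr1 g), hk]⟩
  · intro g hg
    refine ⟨r g, ⟨Finset.mem_image_of_mem r (Finset.mem_filter.mpr ⟨Finset.mem_univ _, hg⟩),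
      hr1 g⟩, ?_⟩
    rintro y ⟨hy, hgy⟩
    rw [Finset.mem_image] at hy
    obtain ⟨g', -, rfl⟩ := hy
    exact (hr2 g g' (hgy.trans (hr1 g').symm)).symm

end Rank

/-- every element centralizes `1` -/
theorem mem_centralizer_one {G : Type*} [Group G] (g : G) : g ∈ Subgroup.centralizer ({1} : Set G) := by
  rw [Subgroup.mem_centralizer_iff]
  intro h hh
  rw [Set.mem_singleton_iff] at hh
  subst hh
  simp

section CountOne

variable {G : Type*} [Group G] [Fintype G]

/-- a `finsum` over the centralizer of `1` is a sum over the group -/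
theorem finsum_centralizer_one (F : G → ℂ) :
    ∑ᶠ s : Subgroup.centralizer ({1} : Set G), F (s : G) = ∑ g : G, F g := by
  classical
  letI : Fintype (Subgroup.centralizer ({1} : Set G)) := Fintype.ofFinite _
  rw [finsum_eq_sum_of_fintype]
  exact Fintype.sum_equiv (Equiv.subtypeUnivEquiv mem_centralizer_one) _ _ (fun s => rfl)

/-- **The trivial section**: the `p`-regular ranks of the blocks of `C_G(1)` inducing `B` add up
to the `p`-regular rank of `B`. -/
theorem induced_count_at_one {p : ℕ} [Fact p.Prime] {M : Ideal Cfsg.AlgInt}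
    (hM : Cfsg.IsPModular p M) (B : Set (Cfsg.IrrCharacter G)) (hB : Cfsg.IsPBlock M B) :
    ∑ᶠ b ∈ {b : Set (Cfsg.IrrCharacter (Subgroup.centralizer ({1} : Set G))) |
        Cfsg.IsInducedBlock M (Subgroup.centralizer ({1} : Set G)) b B}, Cfsg.blockRank p b =
      Cfsg.blockRank p B := by
  classical
  have h1 := block_count_section hM B hB (1 : G) ⟨0, by simp⟩
  have h2 := Cfsg.Agent.S4667.result p M hM B hB
  have := Cfsg.Agent.Lib.Helper81.irr_finite G
  letI : Fintype (Cfsg.IrrCharacter G) := Fintype.ofFinite _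
  have hcard : Nat.card (Subgroup.centralizer ({1} : Set G)) = Nat.card G :=
    Nat.card_congr (Equiv.subtypeUnivEquiv mem_centralizer_one)
  rw [hcard] at h1
  have hL : (∑ᶠ χ ∈ B, ∑ᶠ s : Subgroup.centralizer ({1} : Set G),
      (if p ∣ orderOf s then 0 else
        (χ : G → ℂ) (1 * (s : G)) * (χ : G → ℂ) (1 * (s : G))⁻¹)) =
      ∑ x : G, ∑ᶠ χ ∈ B, Cfsg.pRegularPart p (χ : G → ℂ) x * (χ : G → ℂ) x⁻¹ := by
    have hin : ∀ χ : Cfsg.IrrCharacter G, (∑ᶠ s : Subgroup.centralizer ({1} : Set G),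
        (if p ∣ orderOf s then 0 else
          (χ : G → ℂ) (1 * (s : G)) * (χ : G → ℂ) (1 * (s : G))⁻¹)) =
        ∑ x : G, Cfsg.pRegularPart p (χ : G → ℂ) x * (χ : G → ℂ) x⁻¹ := by
      intro χ
      have h3 := finsum_centralizer_one (fun g : G => if p ∣ orderOf g then 0 else
          (χ : G → ℂ) (1 * g) * (χ : G → ℂ) (1 * g)⁻¹)
      simp only [Subgroup.orderOf_coe] at h3
      rw [h3]
      refine Finset.sum_congr rfl fun x _ => ?_
      unfold Cfsg.pRegularPart Cfsg.IsPRegular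
      by_cases hx : p ∣ orderOf x
      · simp [hx]
      · simp [hx]
    simp_rw [hin]
    simp_rw [finsum_mem_eq_sum_ite]
    rw [Finset.sum_comm]
    refine Finset.sum_congr rfl fun χ _ => ?_
    split_ifs
    · rfl
    · rw [Finset.sum_const_zero]
  rw [hL, ← h2] at h1
  have hG0 : (Nat.card G : ℂ) ≠ 0 := by exact_mod_cast Nat.card_pos.ne'
  have h3 := mul_left_cancel₀ hG0 h1
  exact_mod_cast h3.symm

end CountOne

section Expand

variable {K : Type*} [Group K] [Fintype K] [Fintype (Cfsg.IrrCharacter K)]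

open scoped Classical in
/-- A class function is the sum of its block parts. -/
theorem classFun_eq_sum_blockPart {M : Ideal Cfsg.AlgInt} (hP : M.IsPrime) (φ : K → ℂ)
    (hφ : Cfsg.IsClassFunction K φ) (s : K) :
    φ s = ∑ b ∈ (Finset.univ.image (fun ψ : Cfsg.IrrCharacter K => Cfsg.blockOf M (ψ : K → ℂ))),
      Cfsg.blockPart b φ s := by
  have hbp : ∀ (b : Set (Cfsg.IrrCharacter K)),
      Cfsg.blockPart b φ s = ∑ ψ : Cfsg.IrrCharacter K,
        (if ψ ∈ b then Cfsg.classInner φ (ψ : K → ℂ) else 0) * (ψ : K → ℂ) s := by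
    intro b
    have h0 : Cfsg.blockPart b φ s =
        ∑ᶠ χ ∈ b, Cfsg.classInner φ (χ : K → ℂ) * (χ : K → ℂ) s := by
      unfold Cfsg.blockPart
      have : (Fintype.ofFinite K) = ‹Fintype K› := Subsingleton.elim _ _
      rw [this]
    rw [h0, finsum_mem_eq_sum_ite]
    refine Finset.sum_congr rfl fun ψ _ => ?_
    split_ifs
    · rfl
    · rw [zero_mul]
  rw [Cfsg.Agent.Lib.Helper80.classFun_expansion_apply φ hφ s]
  simp_rw [hbp]
  rw [Finset.sum_comm]
  refine Finset.sum_congr rfl fun ψ _ => ?_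
  rw [Finset.sum_eq_single (Cfsg.blockOf M (ψ : K → ℂ))]
  · rw [if_pos (mem_blockOf_self hP ψ)]
  · intro b hb hne
    rw [Finset.mem_image] at hb
    obtain ⟨ψ₀, -, rfl⟩ := hb
    have hψ : ψ ∉ Cfsg.blockOf M (ψ₀ : K → ℂ) := by
      intro hmem
      exact hne (IsPBlock.eq_blockOf hP (isPBlock_blockOf ψ₀) hmem)
    rw [if_neg hψ, zero_mul]
  · intro h
    exact absurd (Finset.mem_image_of_mem _ (Finset.mem_univ ψ)) h

end Expand

end Cfsg.Agent.Lib.Helper76
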