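import Cfsg.Agent.Lib.Lead.FH.Defs

/-!
# Feit–Higman (S1142), work package B1: the abstract ring lemma

`cas_mul_left_A`, `cas_mul_left_C`, `cas_sq` for the "Casimir" element of two commuting
Hecke pairs.
-/

set_option autoImplicit false

namespace Cfsg.Agent.Lib.Lead.FH

theorem b1_commute_alt_pair {M : Type*} [Monoid M] {x y z : M} (hy : Commute x y)
    (hz : Commute x z) (k : ℕ) : Commute x (alt y z k) ∧ Commute x (alt z y k) := by
  induction k with
  | zero => exact ⟨Commute.one_right x, Commute.one_right x⟩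
  | succ k ih => exact ⟨hy.mul_right ih.2, hz.mul_right ih.1⟩

theorem b1_commute_ralt_pair {M : Type*} [Monoid M] {x y z : M} (hy : Commute x y)
    (hz : Commute x z) (k : ℕ) : Commute x (ralt y z k) ∧ Commute x (ralt z y k) := by
  induction k with
  | zero => exact ⟨Commute.one_right x, Commute.one_right x⟩
  | succ k ih => exact ⟨ih.2.mul_right hy, ih.1.mul_right hz⟩

theorem b1_cas_term_A {R : Type*} [Ring R] [Algebra ℝ R] {a : ℝ} (ha : a ≠ 0) (q : ℝ)
    {A A' Q Q' : R} (hA : A * A = a • (1 : R) + (a - 1) • A)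
    (hA' : A' * A' = a • (1 : R) + (a - 1) • A') (hAA : Commute A A') (hQ : Commute A' Q) :
    A * (q⁻¹ • (Q * Q') + (a * q)⁻¹ • ((A * Q) * (A' * Q')))
      = A' * (q⁻¹ • (Q * Q') + (a * q)⁻¹ • ((A * Q) * (A' * Q'))) := by
  have e1 : ∀ X : R, (a * q)⁻¹ • (a • X) = q⁻¹ • X := by
    intro X
    rw [smul_smul]
    congr 1
    rw [mul_inv, mul_comm a⁻¹, mul_assoc, inv_mul_cancel₀ ha, mul_one]
  have L2 : A * ((A * Q) * (A' * Q')) = a • (Q * A' * Q') + (a - 1) • (A * Q * A' * Q') := by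
    have : A * ((A * Q) * (A' * Q')) = (A * A) * (Q * A' * Q') := by simp only [mul_assoc]
    rw [this, hA, add_mul, smul_mul_assoc, smul_mul_assoc, one_mul]
    simp only [mul_assoc]
  have hc2 : Commute A' (A * Q) := hAA.symm.mul_right hQ
  have R1 : A' * (Q * Q') = Q * A' * Q' := by rw [← mul_assoc, hQ.eq]
  have R2 : A' * ((A * Q) * (A' * Q')) = a • (A * Q * Q') + (a - 1) • (A * Q * A' * Q') := by
    have : A' * ((A * Q) * (A' * Q')) = (A * Q) * (A' * A') * Q' := by
      rw [← mul_assoc, hc2.eq]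
      simp only [mul_assoc]
    rw [this, hA', mul_add, add_mul, mul_smul_comm, mul_smul_comm, smul_mul_assoc,
      smul_mul_assoc, mul_one]
  rw [mul_add, mul_add, mul_smul_comm, mul_smul_comm, mul_smul_comm, mul_smul_comm, L2, R1, R2,
    smul_add, smul_add, e1, e1, ← mul_assoc]
  abel

theorem cas_mul_left_A {R : Type*} [Ring R] [Algebra ℝ R] {m : ℕ} {a c : ℝ} (ha : a ≠ 0)
    (hc : c ≠ 0) {A C A' C' : R} (h : HeckePair m a c A C)
    (h' : HeckePair m a c A' C') (hAA : Commute A A') (hAC : Commute A C') (hCA : Commute C A')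
    (hCC : Commute C C') :
    A * cas m a c A C A' C' = A' * cas m a c A C A' C' := by
  have _h1 := hc
  have _h2 := hAC
  have _h3 := hCC
  unfold cas
  rw [Finset.mul_sum, Finset.mul_sum]
  refine Finset.sum_congr rfl (fun k _ => ?_)
  exact b1_cas_term_A ha (wt c a k) h.sqA h'.sqA hAA (b1_commute_alt_pair hCA.symm hAA.symm k).1

theorem b1_sum_shift_swap {R : Type*} [AddCommGroup R] (f g : ℕ → R) (m : ℕ) (h0 : f 0 = g 0)
    (hm : f m = g m) :
    ∑ k ∈ Finset.range m, (f k + g (k + 1)) = ∑ k ∈ Finset.range m, (g k + f (k + 1)) := by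
  have e1 : ∑ k ∈ Finset.range m, f (k + 1) = ∑ k ∈ Finset.range m, f k + f m - f 0 := by
    rw [eq_sub_iff_add_eq, ← Finset.sum_range_succ', Finset.sum_range_succ]
  have e2 : ∑ k ∈ Finset.range m, g (k + 1) = ∑ k ∈ Finset.range m, g k + g m - g 0 := by
    rw [eq_sub_iff_add_eq, ← Finset.sum_range_succ', Finset.sum_range_succ]
  rw [Finset.sum_add_distrib, Finset.sum_add_distrib, e1, e2, h0, hm]
  abel

theorem b1_cas_swap {R : Type*} [Ring R] [Algebra ℝ R] {m : ℕ} {a c : ℝ}
    (hwt : wt a c m = wt c a m) {A C A' C' : R} (hb : alt A C m = alt C A m)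
    (hb' : alt A' C' m = alt C' A' m) :
    cas m a c A C A' C' = cas m c a C A C' A' := by
  unfold cas
  refine b1_sum_shift_swap (fun k => (wt c a k)⁻¹ • (alt C A k * alt C' A' k))
    (fun k => (wt a c k)⁻¹ • (alt A C k * alt A' C' k)) m ?_ ?_
  · rfl
  · show (wt c a m)⁻¹ • (alt C A m * alt C' A' m) = (wt a c m)⁻¹ • (alt A C m * alt A' C' m)
    rw [hwt, hb, hb']

theorem cas_mul_left_C {R : Type*} [Ring R] [Algebra ℝ R] {m : ℕ} {a c : ℝ} (ha : a ≠ 0)
    (hc : c ≠ 0) (hwt : wt a c m = wt c a m) {A C A' C' : R} (h : HeckePair m a c A C)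
    (h' : HeckePair m a c A' C') (hAA : Commute A A') (hAC : Commute A C') (hCA : Commute C A')
    (hCC : Commute C C') :
    C * cas m a c A C A' C' = C' * cas m a c A C A' C' := by
  rw [b1_cas_swap hwt h.braid h'.braid]
  exact cas_mul_left_A hc ha ⟨h.sqC, h.sqA, h.braid.symm⟩ ⟨h'.sqC, h'.sqA, h'.braid.symm⟩
    hCC hCA hAC hAA

theorem b1_alt_mul_of {R : Type*} [Ring R] {A C A' C' T : R} (hAA : Commute A A')
    (hAC : Commute A C') (hCA : Commute C A') (hCC : Commute C C') (hTA : A * T = A' * T)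
    (hTC : C * T = C' * T) (k : ℕ) :
    alt A C k * T = ralt A' C' k * T ∧ alt C A k * T = ralt C' A' k * T := by
  induction k with
  | zero => exact ⟨rfl, rfl⟩
  | succ k ih =>
    constructor
    · show A * alt C A k * T = ralt C' A' k * A' * T
      rw [mul_assoc, ih.2, ← mul_assoc, ((b1_commute_ralt_pair hAC hAA k).1).eq, mul_assoc, hTA,
        ← mul_assoc]
    · show C * alt A C k * T = ralt A' C' k * C' * T
      rw [mul_assoc, ih.1, ← mul_assoc, ((b1_commute_ralt_pair hCA hCC k).1).eq, mul_assoc, hTC,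
        ← mul_assoc]

theorem b1_cas_mul_of {R : Type*} [Ring R] [Algebra ℝ R] (m : ℕ) (a c : ℝ) {A C A' C' T : R}
    (hAA : Commute A A') (hAC : Commute A C') (hCA : Commute C A') (hCC : Commute C C')
    (hTA : A * T = A' * T) (hTC : C * T = C' * T) :
    cas m a c A C A' C' * T = psi m a c A' C' * T := by
  unfold cas psi
  rw [Finset.sum_mul, Finset.sum_mul]
  refine Finset.sum_congr rfl (fun k _ => ?_)
  have c1 : Commute (alt C A k) (alt C' A' k) := by
    have hx : Commute (alt C' A' k) C := ((b1_commute_alt_pair hCC hCA k).1).symm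
    have hy : Commute (alt C' A' k) A := ((b1_commute_alt_pair hAC hAA k).1).symm
    exact ((b1_commute_alt_pair hx hy k).1).symm
  have c2 : Commute (alt A C (k + 1)) (alt A' C' (k + 1)) := by
    have hx : Commute (alt A' C' (k + 1)) A := ((b1_commute_alt_pair hAA hAC (k + 1)).1).symm
    have hy : Commute (alt A' C' (k + 1)) C := ((b1_commute_alt_pair hCA hCC (k + 1)).1).symm
    exact ((b1_commute_alt_pair hx hy (k + 1)).1).symm
  have key := b1_alt_mul_of hAA hAC hCA hCC hTA hTC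
  rw [add_mul, add_mul, smul_mul_assoc, smul_mul_assoc, smul_mul_assoc, smul_mul_assoc]
  congr 2
  · rw [c1.eq, mul_assoc, (key k).2, ← mul_assoc]
  · rw [c2.eq, mul_assoc, (key (k + 1)).1, ← mul_assoc]

theorem cas_sq {R : Type*} [Ring R] [Algebra ℝ R] {m : ℕ} {a c : ℝ} (ha : a ≠ 0)
    (hc : c ≠ 0) (hwt : wt a c m = wt c a m) {A C A' C' : R} (h : HeckePair m a c A C)
    (h' : HeckePair m a c A' C') (hAA : Commute A A') (hAC : Commute A C') (hCA : Commute C A')
    (hCC : Commute C C') :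
    cas m a c A C A' C' * cas m a c A C A' C' = psi m a c A' C' * cas m a c A C A' C' :=
  b1_cas_mul_of m a c hAA hAC hCA hCC (cas_mul_left_A ha hc h h' hAA hAC hCA hCC)
    (cas_mul_left_C ha hc hwt h h' hAA hAC hCA hCC)

end Cfsg.Agent.Lib.Lead.FH
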