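import Cfsg.Agent.Lib.Lead.FH.Defs

/-!
# Feit–Higman (S1142), work package A1: dihedral lemmas (pure group theory)

`dihedral_card`, `alt_braid`, `list_prod_ne_alt`.
-/

set_option autoImplicit false

namespace Cfsg.Agent.Lib.Lead.FH

theorem h76a1_alt_even_odd {M : Type*} [Monoid M] (x y : M) (i : ℕ) :
    alt x y (2 * i) = (x * y) ^ i ∧ alt x y (2 * i + 1) = (x * y) ^ i * x := by
  induction i with
  | zero =>
    constructor
    · show (1 : M) = (x * y) ^ 0
      rw [pow_zero]
    · show x * 1 = (x * y) ^ 0 * x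
      rw [pow_zero, mul_one, one_mul]
  | succ i ih =>
    have e1 : alt x y (2 * (i + 1)) = (x * y) ^ (i + 1) := by
      have h2 : 2 * (i + 1) = (2 * i + 1) + 1 := by ring
      rw [h2]
      show x * (y * alt x y (2 * i)) = _
      rw [ih.1, ← mul_assoc, pow_succ']
    have e2 : alt x y (2 * (i + 1) + 1) = (x * y) ^ (i + 1) * x := by
      have h2 : 2 * (i + 1) + 1 = ((2 * i + 1) + 1) + 1 := by ring
      rw [h2]
      show x * (y * alt x y (2 * i + 1)) = _
      rw [ih.2, ← mul_assoc, ← mul_assoc, pow_succ']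
    exact ⟨e1, e2⟩

theorem h76a1_ts {W : Type*} [Group W] (s t : W) (hs : s * s = 1) (ht : t * t = 1) :
    t * s = (s * t)⁻¹ := by
  rw [mul_inv_rev, inv_eq_of_mul_eq_one_right hs, inv_eq_of_mul_eq_one_right ht]

theorem alt_braid {W : Type*} [Group W] (s t : W) (hs : s * s = 1) (ht : t * t = 1) :
    alt s t (orderOf (s * t)) = alt t s (orderOf (s * t)) := by
  have hts : t * s = (s * t)⁻¹ := h76a1_ts s t hs ht
  have hpow := pow_orderOf_eq_one (s * t)
  rcases Nat.even_or_odd' (orderOf (s * t)) with ⟨M, hM | hM⟩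
  · rw [hM] at hpow ⊢
    rw [(h76a1_alt_even_odd s t M).1, (h76a1_alt_even_odd t s M).1, hts, inv_pow,
      eq_inv_iff_mul_eq_one, ← pow_add]
    rwa [two_mul] at hpow
  · rw [hM] at hpow ⊢
    rw [(h76a1_alt_even_odd s t M).2, (h76a1_alt_even_odd t s M).2, hts, inv_pow,
      eq_inv_mul_iff_mul_eq, ← mul_assoc, ← pow_add]
    have h2 : (s * t) ^ (M + M) = (s * t)⁻¹ := by
      rw [eq_inv_iff_mul_eq_one, ← pow_succ]
      rwa [two_mul] at hpow
    rw [h2, ← hts, mul_assoc, hs, mul_one]

theorem h76a1_not_mem {W : Type*} [Group W] (s t : W) (hs : s * s = 1) (ht : t * t = 1)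
    (hs1 : s ≠ 1) (ht1 : t ≠ 1) :
    s ∉ Subgroup.zpowers (s * t) := by
  intro hmem
  obtain ⟨z, hz⟩ := Subgroup.mem_zpowers_iff.mp hmem
  have hcomm : Commute s (s * t) := by
    have hc : Commute ((s * t) ^ z) (s * t) := (Commute.refl (s * t)).zpow_left z
    rwa [hz] at hc
  have h1 : s * (s * t) = (s * t) * s := hcomm.eq
  have h2 : t = s * t * s := by rw [← h1, ← mul_assoc, hs, one_mul]
  have h3 : (s * t) * (s * t) = 1 := by
    calc (s * t) * (s * t) = (s * t * s) * t := by simp only [mul_assoc]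
      _ = t * t := by rw [← h2]
      _ = 1 := ht
  have h4 : ∀ z : ℤ, (s * t) ^ z = 1 ∨ (s * t) ^ z = s * t := by
    intro z
    rcases Int.even_or_odd' z with ⟨w, hw | hw⟩
    · left
      rw [hw, zpow_mul, zpow_two, h3, one_zpow]
    · right
      rw [hw, zpow_add, zpow_mul, zpow_two, h3, one_zpow, one_mul, zpow_one]
  rcases h4 z with h | h
  · exact hs1 (hz.symm.trans h)
  · have h5 : s = s * t := hz.symm.trans h
    have h6 : s * 1 = s * t := by rw [mul_one]; exact h5
    exact ht1 (mul_left_cancel h6).symm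

theorem h76a1_list_prod {W : Type*} [Group W] (s t : W) (hs : s * s = 1) (ht : t * t = 1)
    (L : List W) (hL : ∀ x ∈ L, x = s ∨ x = t) :
    ∃ j, j ≤ L.length ∧ (L.prod = alt s t j ∨ L.prod = alt t s j) := by
  induction L with
  | nil => exact ⟨0, le_refl _, Or.inl rfl⟩
  | cons x L ih =>
    obtain ⟨j, hj, hprod⟩ := ih (fun y hy => hL y (List.mem_cons_of_mem _ hy))
    rw [List.prod_cons, List.length_cons]
    rcases hL x List.mem_cons_self with hx | hx
    · rw [hx]
      rcases hprod with h | h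
      · cases j with
        | zero => exact ⟨1, by omega, Or.inl (by rw [h]; rfl)⟩
        | succ j' =>
          refine ⟨j', by omega, Or.inr ?_⟩
          rw [h]
          show s * (s * alt t s j') = alt t s j'
          rw [← mul_assoc, hs, one_mul]
      · exact ⟨j + 1, by omega, Or.inl (by rw [h]; rfl)⟩
    · rw [hx]
      rcases hprod with h | h
      · exact ⟨j + 1, by omega, Or.inr (by rw [h]; rfl)⟩
      · cases j with
        | zero => exact ⟨1, by omega, Or.inr (by rw [h]; rfl)⟩
        | succ j' =>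
          refine ⟨j', by omega, Or.inl ?_⟩
          rw [h]
          show t * (t * alt s t j') = alt s t j'
          rw [← mul_assoc, ht, one_mul]

theorem list_prod_ne_alt {W : Type*} [Group W] (s t : W) (hs : s * s = 1) (ht : t * t = 1)
    (hs1 : s ≠ 1) (ht1 : t ≠ 1) (hst : s ≠ t) {k : ℕ} (hk : k ≤ orderOf (s * t))
    (L : List W) (hL : ∀ x ∈ L, x = s ∨ x = t) (hlen : L.length < k) :
    L.prod ≠ alt s t k := by
  have _hst := hst
  intro heq
  have hts : t * s = (s * t)⁻¹ := h76a1_ts s t hs ht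
  have hsn : s ∉ Subgroup.zpowers (s * t) := h76a1_not_mem s t hs ht hs1 ht1
  have hpow : ∀ e, 0 < e → e < orderOf (s * t) → (s * t) ^ e ≠ 1 := by
    intro e he0 he h
    have := Nat.le_of_dvd he0 (orderOf_dvd_of_pow_eq_one h)
    omega
  have hmem : ∀ n : ℕ, (s * t) ^ n ∈ Subgroup.zpowers (s * t) := fun n =>
    Subgroup.pow_mem _ (Subgroup.mem_zpowers _) n
  -- `r ^ i' = r ^ i` with `i < i'` is impossible for small exponents
  have hcase : ∀ i i' : ℕ, i < i' → i' < orderOf (s * t) → (s * t) ^ i' ≠ (s * t) ^ i := by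
    intro i i' hii' hi' h
    obtain ⟨d, rfl⟩ := Nat.exists_eq_add_of_lt hii'
    rw [show i + d + 1 = i + (d + 1) by ring, pow_add] at h
    have h' : (s * t) ^ (d + 1) = 1 := by
      have : (s * t) ^ i * (s * t) ^ (d + 1) = (s * t) ^ i * 1 := by rw [h, mul_one]
      exact mul_left_cancel this
    exact hpow (d + 1) (by omega) (by omega) h'
  obtain ⟨j, hj, hprod⟩ := h76a1_list_prod s t hs ht L hL
  have hjk : j < k := by omega
  rw [heq] at hprod
  rcases Nat.even_or_odd' k with ⟨i', hk' | hk'⟩ <;>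
    rcases Nat.even_or_odd' j with ⟨i, hj' | hj'⟩
  · -- k = 2 i', j = 2 i
    subst hk' hj'
    rcases hprod with h | h
    · rw [(h76a1_alt_even_odd s t i').1, (h76a1_alt_even_odd s t i).1] at h
      exact hcase i i' (by omega) (by omega) h
    · rw [(h76a1_alt_even_odd s t i').1, (h76a1_alt_even_odd t s i).1, hts, inv_pow] at h
      have h' : (s * t) ^ (i' + i) = 1 := by
        rw [pow_add]
        exact mul_eq_one_iff_eq_inv.mpr h
      exact hpow (i' + i) (by omega) (by omega) h'
  · -- k = 2 i', j = 2 i + 1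
    subst hk' hj'
    rcases hprod with h | h
    · rw [(h76a1_alt_even_odd s t i').1, (h76a1_alt_even_odd s t i).2] at h
      have h' : s = ((s * t) ^ i)⁻¹ * (s * t) ^ i' := eq_inv_mul_of_mul_eq h.symm
      have hx : ((s * t) ^ i)⁻¹ * (s * t) ^ i' ∈ Subgroup.zpowers (s * t) :=
        Subgroup.mul_mem _ (Subgroup.inv_mem _ (hmem i)) (hmem i')
      rw [← h'] at hx
      exact hsn hx
    · rw [(h76a1_alt_even_odd s t i').1, (h76a1_alt_even_odd t s i).2, hts, inv_pow] at h
      have h' : t = (s * t) ^ i * (s * t) ^ i' := eq_mul_of_inv_mul_eq h.symm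
      have hx : (s * t) * ((s * t) ^ i * (s * t) ^ i') ∈ Subgroup.zpowers (s * t) :=
        Subgroup.mul_mem _ (Subgroup.mem_zpowers _) (Subgroup.mul_mem _ (hmem i) (hmem i'))
      rw [← h', mul_assoc, ht, mul_one] at hx
      exact hsn hx
  · -- k = 2 i' + 1, j = 2 i
    subst hk' hj'
    rcases hprod with h | h
    · rw [(h76a1_alt_even_odd s t i').2, (h76a1_alt_even_odd s t i).1] at h
      have h' : s = ((s * t) ^ i')⁻¹ * (s * t) ^ i := eq_inv_mul_of_mul_eq h
      have hx : ((s * t) ^ i')⁻¹ * (s * t) ^ i ∈ Subgroup.zpowers (s * t) :=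
        Subgroup.mul_mem _ (Subgroup.inv_mem _ (hmem i')) (hmem i)
      rw [← h'] at hx
      exact hsn hx
    · rw [(h76a1_alt_even_odd s t i').2, (h76a1_alt_even_odd t s i).1, hts, inv_pow] at h
      have h' : s = ((s * t) ^ i')⁻¹ * ((s * t) ^ i)⁻¹ := eq_inv_mul_of_mul_eq h
      have hx : ((s * t) ^ i')⁻¹ * ((s * t) ^ i)⁻¹ ∈ Subgroup.zpowers (s * t) :=
        Subgroup.mul_mem _ (Subgroup.inv_mem _ (hmem i')) (Subgroup.inv_mem _ (hmem i))
      rw [← h'] at hx
      exact hsn hx
  · -- k = 2 i' + 1, j = 2 i + 1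
    subst hk' hj'
    rcases hprod with h | h
    · rw [(h76a1_alt_even_odd s t i').2, (h76a1_alt_even_odd s t i).2] at h
      exact hcase i i' (by omega) (by omega) (mul_right_cancel h)
    · rw [(h76a1_alt_even_odd s t i').2, (h76a1_alt_even_odd t s i).2, hts, inv_pow] at h
      have h1 : (s * t) ^ i * ((s * t) ^ i' * s) = t := eq_inv_mul_iff_mul_eq.mp h
      have h2 : (s * t) ^ i * (s * t) ^ i' = (s * t)⁻¹ := by
        calc (s * t) ^ i * (s * t) ^ i' = (s * t) ^ i * ((s * t) ^ i' * s) * s := by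
              simp only [mul_assoc, hs, mul_one]
          _ = t * s := by rw [h1]
          _ = (s * t)⁻¹ := hts
      have h3 : (s * t) ^ (i + i' + 1) = 1 := by
        rw [pow_succ, pow_add, h2, inv_mul_cancel]
      exact hpow (i + i' + 1) (by omega) (by omega) h3

theorem dihedral_card {W : Type*} [Group W] [Finite W] (s t : W) (hs : s * s = 1)
    (ht : t * t = 1) (hs1 : s ≠ 1) (ht1 : t ≠ 1) (hst : s ≠ t)
    (hgen : Subgroup.closure {s, t} = ⊤) :
    Nat.card W = 2 * orderOf (s * t) ∧ 2 ≤ orderOf (s * t) := by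
  have hsn : s ∉ Subgroup.zpowers (s * t) := h76a1_not_mem s t hs ht hs1 ht1
  have hsinv : s⁻¹ = s := inv_eq_of_mul_eq_one_right hs
  have hF : ∀ h ∈ Subgroup.zpowers (s * t), s * h * s ∈ Subgroup.zpowers (s * t) := by
    intro h hh
    obtain ⟨z, rfl⟩ := Subgroup.mem_zpowers_iff.mp hh
    have e : s * (s * t) ^ z * s = ((s * t)⁻¹) ^ z := by
      have h1 : s * (s * t) * s⁻¹ = (s * t)⁻¹ := by
        rw [hsinv, ← h76a1_ts s t hs ht, ← mul_assoc, hs, one_mul]
      have h2 := conj_zpow (a := s) (b := s * t) (i := z)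
      rw [h1, hsinv] at h2
      exact h2.symm
    rw [e]
    exact Subgroup.zpow_mem _ (Subgroup.inv_mem _ (Subgroup.mem_zpowers _)) z
  have hall : ∀ g : W, g ∈ Subgroup.zpowers (s * t) ∨ s * g ∈ Subgroup.zpowers (s * t) := by
    intro g
    have hg : g ∈ Subgroup.closure ({s, t} : Set W) := by rw [hgen]; trivial
    induction hg using Subgroup.closure_induction with
    | mem x hx =>
      rcases hx with hx | hx
      · right
        rw [hx, hs]
        exact Subgroup.one_mem _
      · right
        rw [Set.mem_singleton_iff.mp hx]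
        exact Subgroup.mem_zpowers _
    | one => exact Or.inl (Subgroup.one_mem _)
    | mul x y _ _ hx hy =>
      rcases hx with hx | hx <;> rcases hy with hy | hy
      · exact Or.inl (Subgroup.mul_mem _ hx hy)
      · right
        have e : s * (x * y) = (s * x * s) * (s * y) := by
          simp only [mul_assoc]
          rw [← mul_assoc s s, hs, one_mul]
        rw [e]
        exact Subgroup.mul_mem _ (hF x hx) hy
      · right
        rw [← mul_assoc]
        exact Subgroup.mul_mem _ hx hy
      · left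
        have e : x * y = (s * (s * x) * s) * (s * y) := by
          simp only [mul_assoc]
          rw [← mul_assoc s s, hs, one_mul, ← mul_assoc s s, hs, one_mul]
        rw [e]
        exact Subgroup.mul_mem _ (hF _ hx) hy
    | inv x _ hx =>
      rcases hx with hx | hx
      · exact Or.inl (Subgroup.inv_mem _ hx)
      · right
        have h1 : x⁻¹ * s ∈ Subgroup.zpowers (s * t) := by
          have := Subgroup.inv_mem _ hx
          rwa [mul_inv_rev, hsinv] at this
        have e : s * x⁻¹ = s * (x⁻¹ * s) * s := by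
          simp only [mul_assoc]
          rw [hs, mul_one]
        rw [e]
        exact hF _ h1
  have hidx : (Subgroup.zpowers (s * t)).index = 2 := by
    rw [Subgroup.index_eq_two_iff]
    refine ⟨s, fun b => ?_⟩
    rcases hall b⁻¹ with h | h
    · have hb : b ∈ Subgroup.zpowers (s * t) := by
        have := Subgroup.inv_mem _ h
        rwa [inv_inv] at this
      refine Or.inr ⟨hb, fun hbs => hsn ?_⟩
      have := Subgroup.mul_mem _ (Subgroup.inv_mem _ hb) hbs
      rwa [inv_mul_cancel_left] at this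
    · have hbs : b * s ∈ Subgroup.zpowers (s * t) := by
        have := Subgroup.inv_mem _ h
        rwa [mul_inv_rev, inv_inv, hsinv] at this
      refine Or.inl ⟨hbs, fun hb => hsn ?_⟩
      have := Subgroup.mul_mem _ (Subgroup.inv_mem _ hb) hbs
      rwa [inv_mul_cancel_left] at this
  have hcard := Subgroup.index_mul_card (Subgroup.zpowers (s * t))
  rw [hidx, Nat.card_zpowers] at hcard
  refine ⟨hcard.symm, ?_⟩
  have h0 : 0 < orderOf (s * t) := orderOf_pos (s * t)
  have h1 : orderOf (s * t) ≠ 1 := by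
    intro h
    rw [orderOf_eq_one_iff] at h
    have : s = t⁻¹ := eq_inv_of_mul_eq_one_left h
    rw [inv_eq_of_mul_eq_one_right ht] at this
    exact hst this
  omega

end Cfsg.Agent.Lib.Lead.FH
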