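import Cfsg.Agent.Lib.Lead.FH.Defs

/-!
# Feit–Higman (S1142), work package B2: the explicit 2-dimensional representation

`v_pos`, `heckePair_R`, `commutant_R`.
-/

set_option autoImplicit false

namespace Cfsg.Agent.Lib.Lead.FH

open Matrix

/-- the recurrence sequence `u 0 = 0`, `u 1 = 1`, `u (k+2) = x u (k+1) - P u k` -/
noncomputable def b2_u (x P : ℝ) : ℕ → ℝ
  | 0 => 0
  | 1 => 1
  | (k + 2) => x * b2_u x P (k + 1) - P * b2_u x P k

theorem b2_alt_even_odd {M : Type*} [Monoid M] (x y : M) (i : ℕ) :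
    alt x y (2 * i) = (x * y) ^ i ∧ alt x y (2 * i + 1) = (x * y) ^ i * x := by
  induction i with
  | zero =>
    constructor
    · show (1 : M) = (x * y) ^ 0
      rw [pow_zero]
    · show x * 1 = (x * y) ^ 0 * x
      rw [pow_zero, mul_one, one_mul]
  | succ i ih =>
    have e1 : alt x y (2 * (i + 1)) = (x * y) ^ (i + 1) := by
      have h2 : 2 * (i + 1) = (2 * i + 1) + 1 := by ring
      rw [h2]
      show x * (y * alt x y (2 * i)) = _
      rw [ih.1, ← mul_assoc, pow_succ']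
    have e2 : alt x y (2 * (i + 1) + 1) = (x * y) ^ (i + 1) * x := by
      have h2 : 2 * (i + 1) + 1 = ((2 * i + 1) + 1) + 1 := by ring
      rw [h2]
      show x * (y * alt x y (2 * i + 1)) = _
      rw [ih.2, ← mul_assoc, ← mul_assoc, pow_succ']
    exact ⟨e1, e2⟩

theorem b2_pow_formula {X : Matrix (Fin 2) (Fin 2) ℝ} {x P : ℝ}
    (hX : X * X = x • X - P • (1 : Matrix (Fin 2) (Fin 2) ℝ)) (k : ℕ) :
    X ^ (k + 1) = b2_u x P (k + 1) • X - (P * b2_u x P k) • (1 : Matrix (Fin 2) (Fin 2) ℝ) := by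
  induction k with
  | zero => simp [b2_u]
  | succ k ih =>
    rw [pow_succ, ih, sub_mul, smul_mul_assoc, hX, smul_mul_assoc, one_mul]
    show _ = (x * b2_u x P (k + 1) - P * b2_u x P k) • X - _
    module

theorem b2_u_sin (ρ θ : ℝ) (k : ℕ) :
    ρ * b2_u (2 * ρ * Real.cos θ) (ρ ^ 2) k * Real.sin θ = ρ ^ k * Real.sin (k * θ) := by
  induction k using Nat.twoStepInduction with
  | zero => simp [b2_u]
  | one => simp [b2_u]
  | more k ih0 ih1 =>
    have e : b2_u (2 * ρ * Real.cos θ) (ρ ^ 2) (k + 2)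
        = (2 * ρ * Real.cos θ) * b2_u (2 * ρ * Real.cos θ) (ρ ^ 2) (k + 1)
          - ρ ^ 2 * b2_u (2 * ρ * Real.cos θ) (ρ ^ 2) k := rfl
    rw [e]
    have hs : Real.sin (((k + 2 : ℕ) : ℝ) * θ)
        = 2 * Real.cos θ * Real.sin (((k + 1 : ℕ) : ℝ) * θ) - Real.sin ((k : ℝ) * θ) := by
      push_cast
      have h1 : ((k : ℝ) + 2) * θ = ((k : ℝ) + 1) * θ + θ := by ring
      have h2 : (k : ℝ) * θ = ((k : ℝ) + 1) * θ - θ := by ring
      rw [h1, h2, Real.sin_add, Real.sin_sub]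
      ring
    rw [hs]
    linear_combination (2 * ρ * Real.cos θ) * ih1 - ρ ^ 2 * ih0

theorem b2_theta_bounds {m j : ℕ} (hj : 0 < j) (hj2 : 2 * j < m) :
    0 < 2 * Real.pi * (j : ℝ) / (m : ℝ) ∧ 2 * Real.pi * (j : ℝ) / (m : ℝ) < Real.pi := by
  have hm : 0 < m := by omega
  have hm' : (0 : ℝ) < m := Nat.cast_pos.mpr hm
  have hj' : (0 : ℝ) < j := Nat.cast_pos.mpr hj
  refine ⟨div_pos (mul_pos (mul_pos two_pos Real.pi_pos) hj') hm', ?_⟩
  rw [div_lt_iff₀ hm']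
  have h2 : (2 * j : ℝ) < m := by exact_mod_cast hj2
  nlinarith [Real.pi_pos]

theorem v_pos {m a c : ℕ} (ha : 2 ≤ a) (hc : 2 ≤ c) {j : ℕ} (hj : 0 < j) (hj2 : 2 * j < m) :
    0 < (a : ℝ) + c + xval a c m j := by
  obtain ⟨hθ0, hθπ⟩ := b2_theta_bounds hj hj2
  have hcos : -1 < Real.cos (2 * Real.pi * (j : ℝ) / (m : ℝ)) := by
    have := Real.strictAntiOn_cos ⟨hθ0.le, hθπ.le⟩ ⟨Real.pi_pos.le, le_refl _⟩ hθπ
    rwa [Real.cos_pi] at this
  have ha' : (2 : ℝ) ≤ a := by exact_mod_cast ha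
  have hc' : (2 : ℝ) ≤ c := by exact_mod_cast hc
  have hac : (0 : ℝ) < (a : ℝ) * c := by positivity
  have hs0 : 0 < Real.sqrt ((a : ℝ) * c) := Real.sqrt_pos.mpr hac
  have h1 : 2 * Real.sqrt ((a : ℝ) * c) ≤ a + c := by
    have h : (a : ℝ) * c ≤ (((a : ℝ) + c) / 2) ^ 2 := by nlinarith [sq_nonneg ((a : ℝ) - c)]
    have h' := Real.sqrt_le_sqrt h
    rw [Real.sqrt_sq (by positivity)] at h'
    linarith
  have h2 : 0 < Real.sqrt ((a : ℝ) * c) * (Real.cos (2 * Real.pi * (j : ℝ) / (m : ℝ)) + 1) :=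
    mul_pos hs0 (by linarith)
  unfold xval
  nlinarith [h1, h2]

theorem b2_sqX (a c x : ℝ) :
    (RA a * RC c (a + c + x)) * (RA a * RC c (a + c + x))
      = x • (RA a * RC c (a + c + x)) - (a * c) • (1 : Matrix (Fin 2) (Fin 2) ℝ) := by
  unfold RA RC
  ext i j
  fin_cases i <;> fin_cases j <;>
    simp [Matrix.mul_apply, Fin.sum_univ_two] <;> ring

theorem b2_sqX' (a c x : ℝ) :
    (RC c (a + c + x) * RA a) * (RC c (a + c + x) * RA a)
      = x • (RC c (a + c + x) * RA a) - (a * c) • (1 : Matrix (Fin 2) (Fin 2) ℝ) := by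
  unfold RA RC
  ext i j
  fin_cases i <;> fin_cases j <;>
    simp [Matrix.mul_apply, Fin.sum_univ_two] <;> ring

theorem b2_odd_id (q x : ℝ) :
    (RA q * RC q (q + q + x)) * RA q - (RC q (q + q + x) * RA q) * RC q (q + q + x)
      = (x + q) • (RA q - RC q (q + q + x)) := by
  unfold RA RC
  ext i j
  fin_cases i <;> fin_cases j <;>
    simp <;> ring

theorem heckePair_R {m a c : ℕ} (hm : 2 ≤ m) (ha : 2 ≤ a) (hc : 2 ≤ c) (hodd : Odd m → a = c)
    {j : ℕ} (hj : 0 < j) (hj2 : 2 * j < m) :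
    HeckePair m (a : ℝ) (c : ℝ) (RA a) (RC c (a + c + xval a c m j)) := by
  have ha' : (2 : ℝ) ≤ a := by exact_mod_cast ha
  have hc' : (2 : ℝ) ≤ c := by exact_mod_cast hc
  have hac : (0 : ℝ) < (a : ℝ) * c := by positivity
  obtain ⟨hθ0, hθπ⟩ := b2_theta_bounds hj hj2
  have hm0 : (0 : ℝ) < m := by
    have : 0 < m := by omega
    exact_mod_cast this
  refine ⟨?_, ?_, ?_⟩
  · unfold RA
    ext i j
    fin_cases i <;> fin_cases j <;>
      simp [Matrix.mul_apply, Fin.sum_univ_two] <;> ring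
  · unfold RC
    ext i j
    fin_cases i <;> fin_cases j <;>
      simp [Matrix.mul_apply, Fin.sum_univ_two] <;> ring
  · -- the braid relation
    set θ : ℝ := 2 * Real.pi * (j : ℝ) / (m : ℝ) with hθ
    set ρ : ℝ := Real.sqrt ((a : ℝ) * c) with hρ
    have hρ0 : 0 < ρ := Real.sqrt_pos.mpr hac
    have hρ2 : ρ ^ 2 = (a : ℝ) * c := Real.sq_sqrt hac.le
    have hx : xval a c m j = 2 * ρ * Real.cos θ := rfl
    have hsin : Real.sin θ ≠ 0 := (Real.sin_pos_of_pos_of_lt_pi hθ0 hθπ).ne'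
    have hX := b2_sqX (a : ℝ) (c : ℝ) (xval a c m j)
    have hX' := b2_sqX' (a : ℝ) (c : ℝ) (xval a c m j)
    rw [hx, ← hρ2] at hX hX'
    rcases Nat.even_or_odd m with he | ho
    · obtain ⟨M, hM⟩ := he
      obtain ⟨M', rfl⟩ : ∃ M', M = M' + 1 := ⟨M - 1, by omega⟩
      have hm2 : m = 2 * (M' + 1) := by omega
      have hu : b2_u (2 * ρ * Real.cos θ) (ρ ^ 2) (M' + 1) = 0 := by
        have h := b2_u_sin ρ θ (M' + 1)
        have hz : Real.sin (((M' + 1 : ℕ) : ℝ) * θ) = 0 := by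
          have : ((M' + 1 : ℕ) : ℝ) * θ = (j : ℝ) * Real.pi := by
            rw [hθ, hm2]
            push_cast
            field_simp
          rw [this]
          exact Real.sin_nat_mul_pi j
        rw [hz, mul_zero] at h
        rcases mul_eq_zero.mp h with h | h
        · rcases mul_eq_zero.mp h with h | h
          · exact absurd h hρ0.ne'
          · exact h
        · exact absurd h hsin
      rw [hx, hm2, (b2_alt_even_odd _ _ _).1, (b2_alt_even_odd _ _ _).1, b2_pow_formula hX M',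
        b2_pow_formula hX' M', hu, zero_smul, zero_smul]
    · obtain ⟨h, hh⟩ := ho
      have hacn : a = c := hodd ⟨h, hh⟩
      subst hacn
      obtain ⟨h', rfl⟩ : ∃ h', h = h' + 1 := ⟨h - 1, by omega⟩
      have hρq : ρ = (a : ℝ) := by
        rw [hρ, ← sq, Real.sqrt_sq (by positivity)]
      have hq0 : (a : ℝ) ≠ 0 := by positivity
      -- key scalar identity
      have hu : b2_u (2 * ρ * Real.cos θ) (ρ ^ 2) (h' + 2)
          + (a : ℝ) * b2_u (2 * ρ * Real.cos θ) (ρ ^ 2) (h' + 1) = 0 := by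
        have h1 := b2_u_sin ρ θ (h' + 2)
        have h2 := b2_u_sin ρ θ (h' + 1)
        have hz : Real.sin (((h' + 2 : ℕ) : ℝ) * θ) = - Real.sin (((h' + 1 : ℕ) : ℝ) * θ) := by
          have : ((h' + 2 : ℕ) : ℝ) * θ = (j : ℝ) * (2 * Real.pi) - ((h' + 1 : ℕ) : ℝ) * θ := by
            rw [hθ, hh]
            push_cast
            field_simp
            ring
          rw [this]
          exact Real.sin_nat_mul_two_pi_sub _ j
        rw [hz] at h1
        rw [hρq] at h1 h2 ⊢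
        have h3 : (a : ℝ) * Real.sin θ
            * (b2_u (2 * (a : ℝ) * Real.cos θ) ((a : ℝ) ^ 2) (h' + 2)
              + (a : ℝ) * b2_u (2 * (a : ℝ) * Real.cos θ) ((a : ℝ) ^ 2) (h' + 1)) = 0 := by
          linear_combination h1 + (a : ℝ) * h2
        rcases mul_eq_zero.mp h3 with h4 | h4
        · rcases mul_eq_zero.mp h4 with h5 | h5
          · exact absurd h5 hq0
          · exact absurd h5 hsin
        · exact h4
      have hrec : b2_u (2 * ρ * Real.cos θ) (ρ ^ 2) (h' + 2)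
          = (2 * ρ * Real.cos θ) * b2_u (2 * ρ * Real.cos θ) (ρ ^ 2) (h' + 1)
            - ρ ^ 2 * b2_u (2 * ρ * Real.cos θ) (ρ ^ 2) h' := rfl
      have hid := b2_odd_id (a : ℝ) (xval a a m j)
      rw [hx] at hid
      rw [hx, hh, (b2_alt_even_odd _ _ _).2, (b2_alt_even_odd _ _ _).2, b2_pow_formula hX h',
        b2_pow_formula hX' h', ← sub_eq_zero]
      have hfin : (b2_u (2 * ρ * Real.cos θ) (ρ ^ 2) (h' + 1) • (RA (a : ℝ) * RC (a : ℝ) ((a : ℝ) + (a : ℝ) + 2 * ρ * Real.cos θ))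
            - (ρ ^ 2 * b2_u (2 * ρ * Real.cos θ) (ρ ^ 2) h') • (1 : Matrix (Fin 2) (Fin 2) ℝ)) * RA (a : ℝ)
          - (b2_u (2 * ρ * Real.cos θ) (ρ ^ 2) (h' + 1) • (RC (a : ℝ) ((a : ℝ) + (a : ℝ) + 2 * ρ * Real.cos θ) * RA (a : ℝ))
            - (ρ ^ 2 * b2_u (2 * ρ * Real.cos θ) (ρ ^ 2) h') • (1 : Matrix (Fin 2) (Fin 2) ℝ)) * RC (a : ℝ) ((a : ℝ) + (a : ℝ) + 2 * ρ * Real.cos θ)
          = (b2_u (2 * ρ * Real.cos θ) (ρ ^ 2) (h' + 2)
              + (a : ℝ) * b2_u (2 * ρ * Real.cos θ) (ρ ^ 2) (h' + 1))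
            • (RA (a : ℝ) - RC (a : ℝ) ((a : ℝ) + (a : ℝ) + 2 * ρ * Real.cos θ)) := by
        rw [sub_mul, sub_mul, smul_mul_assoc, smul_mul_assoc, smul_mul_assoc, smul_mul_assoc,
          one_mul, one_mul, hrec]
        have hid' : (RA (a : ℝ) * RC (a : ℝ) ((a : ℝ) + (a : ℝ) + 2 * ρ * Real.cos θ)) * RA (a : ℝ)
            = (RC (a : ℝ) ((a : ℝ) + (a : ℝ) + 2 * ρ * Real.cos θ) * RA (a : ℝ)) * RC (a : ℝ) ((a : ℝ) + (a : ℝ) + 2 * ρ * Real.cos θ)
              + (2 * ρ * Real.cos θ + (a : ℝ)) • (RA (a : ℝ) - RC (a : ℝ) ((a : ℝ) + (a : ℝ) + 2 * ρ * Real.cos θ)) := by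
          rw [← hid]; abel
        rw [hid', hρq]
        module
      rw [hfin, hu, zero_smul]

theorem commutant_R {a c v : ℝ} (ha : 0 < a) (hv : v ≠ 0) (M : Matrix (Fin 2) (Fin 2) ℝ)
    (h1 : M * RA a = RA a * M) (h2 : M * RC c v = RC c v * M) :
    ∃ r : ℝ, M = r • (1 : Matrix (Fin 2) (Fin 2) ℝ) := by
  unfold RA at h1
  unfold RC at h2
  have e01 := congrFun (congrFun h1 0) 1
  have f00 := congrFun (congrFun h2 0) 0
  have f01 := congrFun (congrFun h2 0) 1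
  simp [Matrix.mul_apply, Fin.sum_univ_two] at e01 f00 f01
  have hq : M 0 1 = 0 := by
    have : M 0 1 * (a + 1) = 0 := by linarith
    rcases mul_eq_zero.mp this with h | h
    · exact h
    · linarith
  have hr : M 1 0 = 0 := by
    have : v * M 1 0 = 0 := by linarith
    rcases mul_eq_zero.mp this with h | h
    · exact absurd h hv
    · exact h
  have hs : M 0 0 = M 1 1 := by
    rw [hq] at f01
    have : v * (M 0 0 - M 1 1) = 0 := by linarith
    rcases mul_eq_zero.mp this with h | h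
    · exact absurd h hv
    · linarith
  refine ⟨M 0 0, ?_⟩
  ext i j
  fin_cases i <;> fin_cases j <;> simp [hq, hr, hs]

end Cfsg.Agent.Lib.Lead.FH
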