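import Mathlib

/-!
# Landau's theorem: the order of a finite group is bounded in terms of its class number
-/

set_option autoImplicit false
universe u

namespace Cfsg.Agent.Lib.Helper76

/-- Egyptian-fraction bound: if `k` unit fractions add up to `a / b` with `b ≤ D`, then all
denominators are bounded in terms of `k` and `D`. -/
theorem egypt_bound (k : ℕ) : ∀ D : ℕ, ∃ N : ℕ, ∀ {ι : Type u} (s : Finset ι) (n : ι → ℕ),
    s.card = k → (∀ i ∈ s, 0 < n i) → ∀ a b : ℕ, 0 < a → 0 < b → b ≤ D →
    ∑ i ∈ s, (1 / (n i : ℚ)) = (a : ℚ) / b → ∀ i ∈ s, n i ≤ N := by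
  induction k with
  | zero =>
    intro D
    refine ⟨0, fun {ι} s n hs _ _ _ _ _ _ _ i hi => ?_⟩
    rw [Finset.card_eq_zero.mp hs] at hi
    simp at hi
  | succ k ih =>
    intro D
    obtain ⟨N', hN'⟩ := ih ((k + 1) * D * D)
    refine ⟨max ((k + 1) * D) N', ?_⟩
    intro ι s n hs hpos a b ha hb hbD hsum i hi
    classical
    have hne : s.Nonempty := Finset.card_pos.mp (by omega)
    obtain ⟨i₀, hi₀, hmin⟩ := Finset.exists_min_image s n hne
    have hn0 : (0 : ℚ) < (n i₀ : ℚ) := by exact_mod_cast hpos i₀ hi₀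
    have hbq : (0 : ℚ) < (b : ℚ) := by exact_mod_cast hb
    have h1 : (a : ℚ) / b ≤ ((k : ℚ) + 1) / (n i₀ : ℚ) := by
      rw [← hsum]
      calc ∑ i ∈ s, 1 / (n i : ℚ) ≤ ∑ i ∈ s, 1 / (n i₀ : ℚ) :=
            Finset.sum_le_sum (fun i hi => one_div_le_one_div_of_le hn0
              (by exact_mod_cast hmin i hi))
        _ = ((k : ℚ) + 1) / (n i₀ : ℚ) := by
            rw [Finset.sum_const, hs]
            simp
            ring
    have h2 : n i₀ ≤ (k + 1) * D := by
      have h3 : (a : ℚ) * n i₀ ≤ ((k : ℚ) + 1) * b := by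
        rw [div_le_div_iff₀ hbq hn0] at h1
        exact h1
      have h4 : a * n i₀ ≤ (k + 1) * b := by exact_mod_cast h3
      calc n i₀ ≤ a * n i₀ := Nat.le_mul_of_pos_left _ ha
        _ ≤ (k + 1) * b := h4
        _ ≤ (k + 1) * D := Nat.mul_le_mul_left _ hbD
    by_cases hii : i = i₀
    · rw [hii]
      exact le_trans h2 (le_max_left _ _)
    · have hi' : i ∈ s.erase i₀ := Finset.mem_erase.mpr ⟨hii, hi⟩
      have hs' : (s.erase i₀).card = k := by
        rw [Finset.card_erase_of_mem hi₀, hs]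
        rfl
      have hsplit : ∑ j ∈ s.erase i₀, 1 / (n j : ℚ) = (a : ℚ) / b - 1 / (n i₀ : ℚ) := by
        rw [← hsum, ← Finset.add_sum_erase s _ hi₀]
        ring
      have hpos' : (0 : ℚ) < ∑ j ∈ s.erase i₀, 1 / (n j : ℚ) := by
        apply Finset.sum_pos
        · intro j hj
          have : (0 : ℚ) < (n j : ℚ) := by exact_mod_cast hpos j (Finset.mem_of_mem_erase hj)
          positivity
        · exact ⟨i, hi'⟩
      have hlt : b < a * n i₀ := by
        have h5 : (0 : ℚ) < (a : ℚ) / b - 1 / (n i₀ : ℚ) := by rw [← hsplit]; exact hpos'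
        have h6 : (1 : ℚ) / (n i₀ : ℚ) < (a : ℚ) / b := by linarith
        rw [div_lt_div_iff₀ hn0 hbq] at h6
        have h7 : (b : ℚ) < (a : ℚ) * n i₀ := by linarith
        exact_mod_cast h7
      have hsum' : ∑ j ∈ s.erase i₀, 1 / (n j : ℚ)
          = ((a * n i₀ - b : ℕ) : ℚ) / ((b * n i₀ : ℕ) : ℚ) := by
        rw [hsplit, Nat.cast_sub hlt.le]
        push_cast
        field_simp
      have hb' : b * n i₀ ≤ (k + 1) * D * D := by
        calc b * n i₀ ≤ D * ((k + 1) * D) := Nat.mul_le_mul hbD h2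
          _ = (k + 1) * D * D := by ring
      have := hN' (s.erase i₀) n hs' (fun j hj => hpos j (Finset.mem_of_mem_erase hj))
        (a * n i₀ - b) (b * n i₀) (by omega) (Nat.mul_pos hb (hpos i₀ hi₀)) hb' hsum' i hi'
      exact le_trans this (le_max_right _ _)

/-- **Landau's theorem**: the order of a finite group is bounded by a function of its class
number. -/
theorem landau_bound (k : ℕ) : ∃ N : ℕ, ∀ (G : Type u) [Group G] [Finite G],
    Nat.card (ConjClasses G) ≤ k → Nat.card G ≤ N := by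
  classical
  choose f hf using fun j : ℕ => egypt_bound.{u} j 1
  refine ⟨(Finset.range (k + 1)).sup f, ?_⟩
  intro G _ _ hk
  letI : Fintype G := Fintype.ofFinite G
  letI : Fintype (ConjClasses G) := Fintype.ofFinite _
  have hG0 : 0 < Nat.card G := Nat.card_pos
  -- class sizes divide the group order
  have hdvd : ∀ c : ConjClasses G, c.carrier.ncard ∣ Nat.card G := by
    intro c
    obtain ⟨g, rfl⟩ := ConjClasses.mk_surjective c
    rw [← ConjAct.orbit_eq_carrier_conjClasses]
    have h := MulAction.card_orbit_mul_card_stabilizer_eq_card_group (ConjAct G) g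
    rw [← Nat.card_eq_fintype_card, ← Nat.card_eq_fintype_card, ← Nat.card_eq_fintype_card,
      Nat.card_coe_set_eq] at h
    have hc : Nat.card (ConjAct G) = Nat.card G := Nat.card_congr ConjAct.ofConjAct.toEquiv
    rw [← hc, ← h]
    exact dvd_mul_right _ _
  have hcpos : ∀ c : ConjClasses G, 0 < c.carrier.ncard := by
    intro c
    obtain ⟨g, rfl⟩ := ConjClasses.mk_surjective c
    exact (Set.ncard_pos (Set.toFinite _)).mpr ⟨g, ConjClasses.mem_carrier_mk⟩
  have hsum : ∑ c : ConjClasses G, c.carrier.ncard = Nat.card G := by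
    rw [← Group.sum_card_conj_classes_eq_card G, finsum_eq_sum_of_fintype]
  set n : ConjClasses G → ℕ := fun c => Nat.card G / c.carrier.ncard with hn
  have hnpos : ∀ c ∈ (Finset.univ : Finset (ConjClasses G)), 0 < n c := by
    intro c _
    exact Nat.div_pos (Nat.le_of_dvd hG0 (hdvd c)) (hcpos c)
  have hq : ∑ c : ConjClasses G, (1 / (n c : ℚ)) = ((1 : ℕ) : ℚ) / ((1 : ℕ) : ℚ) := by
    have hGq : ((Nat.card G : ℕ) : ℚ) ≠ 0 := by exact_mod_cast hG0.ne'
    have : ∀ c : ConjClasses G, (1 / (n c : ℚ)) = (c.carrier.ncard : ℚ) / (Nat.card G : ℚ) := by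
      intro c
      have hcq : ((c.carrier.ncard : ℕ) : ℚ) ≠ 0 := by exact_mod_cast (hcpos c).ne'
      rw [hn]
      simp only
      rw [Nat.cast_div (hdvd c) hcq]
      field_simp
    rw [Finset.sum_congr rfl (fun c _ => this c), ← Finset.sum_div]
    rw [← Nat.cast_sum, hsum]
    simp
  have hcard : (Finset.univ : Finset (ConjClasses G)).card = Nat.card (ConjClasses G) := by
    rw [Finset.card_univ, Nat.card_eq_fintype_card]
  have hb := hf (Nat.card (ConjClasses G)) Finset.univ n hcard hnpos 1 1 one_pos one_pos le_rfl hq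
    (ConjClasses.mk (1 : G)) (Finset.mem_univ _)
  have h1 : (ConjClasses.mk (1 : G)).carrier = {1} := by
    ext x
    rw [ConjClasses.mem_carrier_iff_mk_eq, ConjClasses.mk_eq_mk_iff_isConj, Set.mem_singleton_iff]
    constructor
    · intro h
      exact (isConj_one_right.mp h.symm)
    · intro h
      rw [h]
  have hn1 : n (ConjClasses.mk (1 : G)) = Nat.card G := by
    rw [hn]
    simp only
    rw [h1, Set.ncard_singleton, Nat.div_one]
  rw [hn1] at hb
  exact le_trans hb (Finset.le_sup (f := f) (Finset.mem_range.mpr (by omega)))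

end Cfsg.Agent.Lib.Helper76
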